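import Cfsg.Agent.Lib.Helper11.SpG.Defs

set_option autoImplicit false

namespace Cfsg.Agent.Lib.Helper11.SpG

open Cfsg Cfsg.Geo
open Cfsg.Agent.Lib.Helper77.Asch (NormBy MinOver)
open Cfsg.Agent.Lib.Helper80.AS (env cen IsScal IsComm SelfAdj Projs tmat IsLeftFactor GramTensor)
open scoped MatrixGroups Matrix Kronecker

variable {ι : Type} [Fintype ι] [DecidableEq ι] {F : Type*} [Field F]

/-- ABSM (port of Helper77/Asch/Main.lean `absIrr_mono` to `ι`). -/
theorem absIrr_mono_i {S T : Set (Matrix ι ι F)} (h : S ⊆ T) (hS : ActsAbsolutelyIrreducibly S) :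
    ActsAbsolutelyIrreducibly T :=
  ⟨fun W hW => hS.1 W (fun s hs => hW s (h hs)), fun M hM => hS.2 M (fun s hs => hM s (h hs))⟩

end Cfsg.Agent.Lib.Helper11.SpG
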