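import Cfsg.Agent.Lib.Helper11.SpG.Defs

set_option autoImplicit false

namespace Cfsg.Agent.Lib.Helper11.SpG

open Cfsg Cfsg.Geo
open Cfsg.Agent.Lib.Helper77.Asch (NormBy MinOver)
open Cfsg.Agent.Lib.Helper80.AS (env cen IsScal IsComm SelfAdj Projs tmat IsLeftFactor GramTensor)
open scoped MatrixGroups Matrix Kronecker

variable {ι : Type} [Fintype ι] [DecidableEq ι] {F : Type*} [Field F]

theorem adjs_cancel (g : GL ι F) (w : ι → F) :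
    (g : Matrix ι ι F) *ᵥ (((g⁻¹ : GL ι F) : Matrix ι ι F) *ᵥ w) = w := by
  rw [Matrix.mulVec_mulVec, ← Units.val_mul, mul_inv_cancel, Units.val_one, Matrix.one_mulVec]

/-- ADJS. -/
theorem adj_conj_sim (f : (ι → F) → (ι → F) → F) (g : GL ι F) (hg : g ∈ similarityGroup f) (A A' : Matrix ι ι F)
    (hA : ∀ u v, f (A *ᵥ u) v = f u (A' *ᵥ v)) (u v : ι → F) :
    f (((g : Matrix ι ι F) * A * ((g⁻¹ : GL ι F) : Matrix ι ι F)) *ᵥ u) v =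
      f u (((g : Matrix ι ι F) * A' * ((g⁻¹ : GL ι F) : Matrix ι ι F)) *ᵥ v) := by
  obtain ⟨c, hc⟩ := hg
  have h1 : ((g : Matrix ι ι F) * A * ((g⁻¹ : GL ι F) : Matrix ι ι F)) *ᵥ u =
      (g : Matrix ι ι F) *ᵥ (A *ᵥ (((g⁻¹ : GL ι F) : Matrix ι ι F) *ᵥ u)) := by
    simp only [Matrix.mulVec_mulVec, mul_assoc]
  have h2 : ((g : Matrix ι ι F) * A' * ((g⁻¹ : GL ι F) : Matrix ι ι F)) *ᵥ v =
      (g : Matrix ι ι F) *ᵥ (A' *ᵥ (((g⁻¹ : GL ι F) : Matrix ι ι F) *ᵥ v)) := by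
    simp only [Matrix.mulVec_mulVec, mul_assoc]
  rw [h1, h2]
  calc f ((g : Matrix ι ι F) *ᵥ (A *ᵥ (((g⁻¹ : GL ι F) : Matrix ι ι F) *ᵥ u))) v
      = f ((g : Matrix ι ι F) *ᵥ (A *ᵥ (((g⁻¹ : GL ι F) : Matrix ι ι F) *ᵥ u)))
          ((g : Matrix ι ι F) *ᵥ (((g⁻¹ : GL ι F) : Matrix ι ι F) *ᵥ v)) := by rw [adjs_cancel]
    _ = (c : F) * f (A *ᵥ (((g⁻¹ : GL ι F) : Matrix ι ι F) *ᵥ u)) (((g⁻¹ : GL ι F) : Matrix ι ι F) *ᵥ v) := hc _ _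
    _ = (c : F) * f (((g⁻¹ : GL ι F) : Matrix ι ι F) *ᵥ u) (A' *ᵥ (((g⁻¹ : GL ι F) : Matrix ι ι F) *ᵥ v)) := by
        rw [hA]
    _ = f ((g : Matrix ι ι F) *ᵥ (((g⁻¹ : GL ι F) : Matrix ι ι F) *ᵥ u))
          ((g : Matrix ι ι F) *ᵥ (A' *ᵥ (((g⁻¹ : GL ι F) : Matrix ι ι F) *ᵥ v))) := (hc _ _).symm
    _ = f u ((g : Matrix ι ι F) *ᵥ (A' *ᵥ (((g⁻¹ : GL ι F) : Matrix ι ι F) *ᵥ v))) := by rw [adjs_cancel]

end Cfsg.Agent.Lib.Helper11.SpG
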