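import Cfsg.Agent.Lib.Helper11.SpG.Defs

set_option autoImplicit false

namespace Cfsg.Agent.Lib.Helper11.SpG

open Cfsg Cfsg.Geo
open Cfsg.Agent.Lib.Helper77.Asch (NormBy MinOver)
open Cfsg.Agent.Lib.Helper80.AS (env cen IsScal IsComm SelfAdj Projs tmat IsLeftFactor GramTensor)
open scoped MatrixGroups Matrix Kronecker

variable {ι : Type} [Fintype ι] [DecidableEq ι] {F : Type*} [Field F]

/-- AUT. -/
theorem exists_aut_ne [Fintype F] (hq : ¬ (Fintype.card F).Prime) : ∃ σ : F ≃+* F, σ ≠ RingEquiv.refl F := by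
  classical
  obtain ⟨p, hp⟩ := CharP.exists F
  haveI := hp
  obtain ⟨n, hpp, hcard⟩ := FiniteField.card F p
  haveI : Fact p.Prime := ⟨hpp⟩
  refine ⟨frobeniusEquiv F p, fun h => hq ?_⟩
  have hx : ∀ x : F, x ^ p = x := fun x => by
    have := congrArg (fun σ : F ≃+* F => σ x) h
    simpa [frobeniusEquiv_apply, frobenius_def] using this
  have hle : Fintype.card F ≤ p := by
    have hne : (Polynomial.X ^ p - Polynomial.X : Polynomial F) ≠ 0 :=
      FiniteField.X_pow_card_sub_X_ne_zero F hpp.one_lt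
    have hdeg : (Polynomial.X ^ p - Polynomial.X : Polynomial F).natDegree = p :=
      FiniteField.X_pow_card_sub_X_natDegree_eq F hpp.one_lt
    have hsub : (Finset.univ : Finset F) ⊆
        (Polynomial.X ^ p - Polynomial.X : Polynomial F).roots.toFinset := by
      intro x _
      rw [Multiset.mem_toFinset, Polynomial.mem_roots hne]
      simp [hx x]
    calc Fintype.card F = (Finset.univ : Finset F).card := rfl
      _ ≤ _ := Finset.card_le_card hsub
      _ ≤ Multiset.card _ := Multiset.toFinset_card_le _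
      _ ≤ _ := Polynomial.card_roots' _
      _ = p := hdeg
  have hn1 : (n : ℕ) = 1 := by
    by_contra hne
    have h2 : 2 ≤ (n : ℕ) := by have := n.pos; omega
    have h4 : p ^ 2 ≤ p ^ (n : ℕ) := Nat.pow_le_pow_right hpp.pos h2
    have h3 : p ^ 2 ≤ p := h4.trans (hcard ▸ hle)
    have := hpp.one_lt
    nlinarith
  rw [hcard, hn1, pow_one]; exact hpp

end Cfsg.Agent.Lib.Helper11.SpG
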