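import Cfsg.Agent.Lib.Helper11.SpG.Defs
import Cfsg.Agent.Lib.Helper80.AS.CL2A

set_option autoImplicit false

namespace Cfsg.Agent.Lib.Helper11.SpG

open Cfsg Cfsg.Geo
open Cfsg.Agent.Lib.Helper77.Asch (NormBy MinOver)
open Cfsg.Agent.Lib.Helper80.AS (env cen IsScal IsComm SelfAdj Projs tmat IsLeftFactor GramTensor)
open scoped MatrixGroups Matrix Kronecker

variable {ι : Type} [Fintype ι] [DecidableEq ι] {F : Type*} [Field F]

theorem cardr_central (z : GL ι F) (hz : z ∈ scalars ι F) (g : GL ι F) : g * z = z * g := by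
  obtain ⟨c, hc⟩ := (mem_scalars_iff z).1 hz
  apply Units.ext
  rw [Units.val_mul, Units.val_mul, hc]
  simp

/-- CARDR. -/
theorem card_R [Fintype F] [Nonempty ι] (h2 : (2 : F) ≠ 0) (N R : Subgroup (GL ι F)) (hsup : R ⊔ scalars ι F = N)
    (habs : ActsAbsolutelyIrreducibly (matrixSet N)) (hab : ⁅N, N⁆ ≤ scalars ι F)
    (hneg : ∃ z ∈ R, (z : Matrix ι ι F) = -1)
    (hpm : ∀ z ∈ R, z ∈ scalars ι F → (z : Matrix ι ι F) = 1 ∨ (z : Matrix ι ι F) = -1) :
    Nat.card R = 2 * Fintype.card ι ^ 2 := by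
  classical
  haveI hZn : (scalars ι F).Normal :=
    ⟨fun z hz g => by rw [cardr_central z hz g, mul_assoc, mul_inv_cancel, mul_one]; exact hz⟩
  have hZ : scalars ι F ≤ N := by rw [← hsup]; exact le_sup_right
  have h1 : (scalars ι F).relIndex R = Fintype.card ι ^ 2 := by
    rw [← Subgroup.relIndex_sup_right, hsup]
    exact Cfsg.Agent.Lib.Helper80.AS.card_quot_eq_sq N hZ habs hab
  obtain ⟨z, hzR, hz⟩ := hneg
  have hzZ : z ∈ scalars ι F := (mem_scalars_iff z).2 ⟨-1, by rw [hz]; simp⟩
  have h3 : Nat.card ((scalars ι F).subgroupOf R) = 2 := by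
    rw [Nat.card_eq_two_iff]
    refine ⟨1, ⟨⟨z, hzR⟩, Subgroup.mem_subgroupOf.2 hzZ⟩, ?_, ?_⟩
    · intro h
      have h4 : (1 : GL ι F) = z := congrArg (fun t : ((scalars ι F).subgroupOf R) => ((t : ↥R) : GL ι F)) h
      have h5 : (1 : Matrix ι ι F) = -1 := by
        rw [← hz, ← h4, Units.val_one]
      obtain ⟨i⟩ := ‹Nonempty ι›
      have h6 := congrFun (congrFun h5 i) i
      simp only [Matrix.one_apply_eq, Matrix.neg_apply] at h6
      apply h2
      linear_combination h6
    · ext x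
      simp only [Set.mem_insert_iff, Set.mem_singleton_iff, Set.mem_univ, iff_true]
      rcases hpm x.1.1 x.1.2 (Subgroup.mem_subgroupOf.1 x.2) with h | h
      · left
        apply Subtype.ext
        apply Subtype.ext
        apply Units.ext
        exact h
      · right
        apply Subtype.ext
        apply Subtype.ext
        apply Units.ext
        rw [h]
        exact hz.symm
  have h4 := Subgroup.index_mul_card ((scalars ι F).subgroupOf R)
  rw [h3] at h4
  have h5 : ((scalars ι F).subgroupOf R).index = Fintype.card ι ^ 2 := h1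
  rw [h5] at h4
  omega

end Cfsg.Agent.Lib.Helper11.SpG
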