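import Cfsg.Agent.Lib.Helper11.SpG.Defs

set_option autoImplicit false

namespace Cfsg.Agent.Lib.Helper11.SpG

open Cfsg Cfsg.Geo
open Cfsg.Agent.Lib.Helper77.Asch (NormBy MinOver)
open Cfsg.Agent.Lib.Helper80.AS (env cen IsScal IsComm SelfAdj Projs tmat IsLeftFactor GramTensor)
open scoped MatrixGroups Matrix Kronecker

variable {ι : Type} [Fintype ι] [DecidableEq ι] {F : Type*} [Field F]

/-- CENC. -/
theorem card_center_two [Nonempty ι] (h2 : (2 : F) ≠ 0) (R : Subgroup (GL ι F))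
    (hRabs : ActsAbsolutelyIrreducibly (matrixSet R)) (hneg : ∃ z ∈ R, (z : Matrix ι ι F) = -1)
    (hpm : ∀ z ∈ R, z ∈ scalars ι F → (z : Matrix ι ι F) = 1 ∨ (z : Matrix ι ι F) = -1) :
    Nat.card (Subgroup.center R) = 2 := by
  obtain ⟨z0, hz0R, hz0⟩ := hneg
  obtain ⟨i0⟩ := ‹Nonempty ι›
  have hne : (1 : Matrix ι ι F) ≠ -1 := by
    intro h
    have h1 := congrFun (congrFun h i0) i0
    simp only [Matrix.one_apply_eq, Matrix.neg_apply] at h1
    apply h2
    linear_combination h1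
  have hcen : (⟨z0, hz0R⟩ : R) ∈ Subgroup.center R := by
    rw [Subgroup.mem_center_iff]
    rintro ⟨g, hg⟩
    apply Subtype.ext
    apply Units.ext
    simp [hz0]
  rw [Nat.card_eq_two_iff]
  refine ⟨1, ⟨⟨z0, hz0R⟩, hcen⟩, ?_, ?_⟩
  · intro h
    have h1 := congrArg (fun w : Subgroup.center R => (((w : R) : GL ι F) : Matrix ι ι F)) h
    simp only [hz0] at h1
    exact hne h1
  · rw [Set.eq_univ_iff_forall]
    rintro ⟨⟨w, hwR⟩, hw⟩
    have hw' := hw
    rw [Subgroup.mem_center_iff] at hw'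
    obtain ⟨c, hc⟩ := hRabs.2 (w : Matrix ι ι F) (by
      rintro _ ⟨g, hg, rfl⟩
      have h3 := congrArg (fun w : R => ((w : GL ι F) : Matrix ι ι F)) (hw' ⟨g, hg⟩)
      simpa using h3.symm)
    have hc0 : c ≠ 0 := by
      rintro rfl
      have h4 : (w : Matrix ι ι F) * ((w⁻¹ : GL ι F) : Matrix ι ι F) = 1 := by
        rw [← Units.val_mul, mul_inv_cancel]; rfl
      rw [hc, zero_smul, zero_mul] at h4
      have h5 := congrFun (congrFun h4 i0) i0
      simp at h5
    have hws : w ∈ scalars ι F := (mem_scalars_iff w).2 ⟨Units.mk0 c hc0, hc⟩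
    rcases hpm w hwR hws with h5 | h5
    · left
      apply Subtype.ext; apply Subtype.ext; apply Units.ext; simpa using h5
    · right
      rw [Set.mem_singleton_iff]
      apply Subtype.ext; apply Subtype.ext; apply Units.ext; simp [h5, hz0]

end Cfsg.Agent.Lib.Helper11.SpG
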