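import Cfsg.Agent.Lib.Helper11.SpG.Defs
import Cfsg.Agent.Lib.Helper80.C6.CHARP

set_option autoImplicit false

namespace Cfsg.Agent.Lib.Helper11.SpG

open Cfsg Cfsg.Geo
open Cfsg.Agent.Lib.Helper77.Asch (NormBy MinOver)
open scoped MatrixGroups Matrix Kronecker

variable {ι : Type} [Fintype ι] [DecidableEq ι] {F : Type*} [Field F]

/-- CHARI (wrapper of Helper80/C6/CHARP.lean, the port of Helper77/AschG/CHAR.lean to a general index type). -/
theorem char_abelian_cyclic_i [Finite F] [Nonempty ι] (H N R : Subgroup (GL ι F))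
    (hm : MinOver H (scalars ι F) N) (hN : ActsAbsolutelyIrreducibly (matrixSet N))
    (hsup : R ⊔ scalars ι F = N) (hnorm : NormBy H R)
    (A : Subgroup R) (hA : A.Characteristic) (hc : IsMulCommutative A) : IsCyclic A :=
  Cfsg.Agent.Lib.Helper80.C6.char_abelian_cyclic_i H N R hm hN hsup hnorm A hA hc

end Cfsg.Agent.Lib.Helper11.SpG
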