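import Cfsg.Agent.Lib.Helper11.SpG.Defs
import Cfsg.Agent.Lib.Helper18.AutPSL.H90
import Cfsg.Agent.Lib.Helper11.AschO.Defs

set_option autoImplicit false

namespace Cfsg.Agent.Lib.Helper11.SpG

open Cfsg Cfsg.Geo
open Cfsg.Agent.Lib.Helper77.Asch (NormBy MinOver)
open Cfsg.Agent.Lib.Helper80.AS (env cen IsScal IsComm SelfAdj Projs tmat IsLeftFactor GramTensor)
open Cfsg.Agent.Lib.Helper18.AutPSL (mp nrm nrmS)
open scoped MatrixGroups Matrix Kronecker

variable {ι : Type} [Fintype ι] [DecidableEq ι] {F : Type*} [Field F]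

theorem desc_det_mp (σ : F ≃+* F) (N : Matrix ι ι F) : (mp σ N).det = σ N.det :=
  (RingHom.map_det (σ : F →+* F) N).symm

theorem desc_det_nrm (σ : F ≃+* F) (g : Matrix ι ι F) (hg : g.det ≠ 0) (k : ℕ) : (nrm σ g k).det ≠ 0 := by
  induction k with
  | zero => rw [Helper18.AutPSL.nrm_zero, Matrix.det_one]; exact one_ne_zero
  | succ k ih =>
    rw [Helper18.AutPSL.nrm_succ, Matrix.det_mul, desc_det_mp]
    exact mul_ne_zero hg (by simpa using ih)

theorem desc_nrm_comm (σ : F ≃+* F) (g : Matrix ι ι F) (S : Set (Matrix ι ι F))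
    (h : ∀ s ∈ S, g * mp σ s = s * g) (k : ℕ) :
    ∀ s ∈ S, nrm σ g k * mp (σ ^ k) s = s * nrm σ g k := by
  induction k with
  | zero =>
    intro s _
    rw [Helper18.AutPSL.nrm_zero, pow_zero, Helper18.AutPSL.mp_one, Matrix.one_mul, Matrix.mul_one]
  | succ k ih =>
    intro s hs
    have h1 : mp (σ ^ (k + 1)) s = mp (σ ^ k) (mp σ s) := by
      ext i j
      rw [Helper18.AutPSL.mp_apply, Helper18.AutPSL.mp_apply, Helper18.AutPSL.mp_apply, pow_succ]
      rfl
    rw [Helper18.AutPSL.nrm_succ', h1, Matrix.mul_assoc, ← map_mul, h s hs, map_mul, ← Matrix.mul_assoc,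
      ih s hs, Matrix.mul_assoc]

/-- DESC. -/
theorem realisable_of_twist [Finite F] [Nonempty ι] (σ : F ≃+* F) (hne : σ ≠ RingEquiv.refl F)
    (P : Subgroup (GL ι F)) (hP : ActsAbsolutelyIrreducibly (matrixSet P)) (M : Matrix ι ι F) (hM : M.det ≠ 0)
    (h : ∀ s ∈ matrixSet P, s.map σ * M = M * s) :
    ∃ F₀ : Subfield F, F₀ ≠ ⊤ ∧ RealisableOver F₀ (matrixSet P) := by
  classical
  have hfin : Finite (F ≃+* F) := Finite.of_injective (fun e : F ≃+* F => (e : F → F)) DFunLike.coe_injective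
  obtain ⟨r, hr⟩ : ∃ r, orderOf σ = r := ⟨_, rfl⟩
  have hr0 : 0 < r := hr ▸ orderOf_pos σ
  have hσr : σ ^ r = 1 := hr ▸ pow_orderOf_eq_one σ
  have hMu : IsUnit M.det := isUnit_iff_ne_zero.2 hM
  have hM1 : M⁻¹ * M = 1 := Matrix.nonsing_inv_mul M hMu
  have hM2 : M * M⁻¹ = 1 := Matrix.mul_nonsing_inv M hMu
  obtain ⟨g, hgd⟩ : ∃ g, g = M⁻¹ := ⟨_, rfl⟩
  have hg : ∀ s ∈ matrixSet P, g * mp σ s = s * g := by
    intro s hs
    have h1 : mp σ s * M = M * s := h s hs
    calc g * mp σ s = g * (mp σ s * M) * g := by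
          rw [hgd, Matrix.mul_assoc, Matrix.mul_assoc, hM2, Matrix.mul_one]
      _ = s * g := by rw [h1, hgd, ← Matrix.mul_assoc, hM1, Matrix.one_mul]
  have hgdet : g.det ≠ 0 := by
    intro h0
    have := congrArg Matrix.det hM1
    rw [Matrix.det_mul, ← hgd, h0, zero_mul, Matrix.det_one] at this
    exact zero_ne_one this
  obtain ⟨c, hc⟩ := hP.2 (nrm σ g r) (by
    intro s hs
    have := desc_nrm_comm σ g _ hg r s hs
    rwa [hσr, Helper18.AutPSL.mp_one] at this)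
  have hc0 : c ≠ 0 := by
    intro h0
    have h1 := desc_det_nrm σ g hgdet r
    rw [hc, h0, zero_smul, Matrix.det_zero] at h1
    exact h1 rfl
  have hcσ : σ c = c := by
    have h1 : g * mp σ (nrm σ g r) = nrm σ g r * g := by
      rw [← Helper18.AutPSL.nrm_succ, Helper18.AutPSL.nrm_succ', hσr, Helper18.AutPSL.mp_one]
    rw [hc, Helper18.AutPSL.mp_smul, map_one, Matrix.mul_smul, Matrix.mul_one, Matrix.smul_mul,
      Matrix.one_mul] at h1
    have h2 : (σ c - c) • g = 0 := by rw [sub_smul, h1, sub_self]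
    have hg0 : g ≠ 0 := by
      intro h0
      rw [h0, Matrix.det_zero] at hgdet
      exact hgdet rfl
    rcases smul_eq_zero.1 h2 with h3 | h3
    · exact sub_eq_zero.1 h3
    · exact absurd h3 hg0
  obtain ⟨l, hl0, hl⟩ := Helper18.AutPSL.nrmS_surj σ r hr0 hr c⁻¹ (inv_ne_zero hc0) (by rw [map_inv₀, hcσ])
  have hN : nrm σ (l • g) r = 1 := by
    rw [Helper18.AutPSL.nrm_smul, hl, hc, smul_smul, inv_mul_cancel₀ hc0, one_smul]
  obtain ⟨b, hb, hb2⟩ := Helper18.AutPSL.hilbert90 σ (l • g) r hr0 hr hN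
  have hbu : IsUnit b.det := isUnit_iff_ne_zero.2 hb
  have hb1 : b⁻¹ * b = 1 := Matrix.nonsing_inv_mul b hbu
  have hb3 : b * b⁻¹ = 1 := Matrix.mul_nonsing_inv b hbu
  let B : GL ι F := ⟨b⁻¹, b, hb1, hb3⟩
  refine ⟨Cfsg.Agent.Lib.Helper11.AschO.fixF σ, ?_, B, ?_⟩
  · intro htop
    apply hne
    ext a
    have : a ∈ Cfsg.Agent.Lib.Helper11.AschO.fixF σ := by rw [htop]; trivial
    exact this
  · intro s hs i j
    have hBv : (B : Matrix ι ι F) = b⁻¹ := rfl
    have hBi : ((B⁻¹ : GL ι F) : Matrix ι ι F) = b := rfl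
    rw [hBv, hBi]
    set X : Matrix ι ι F := b⁻¹ * s * b with hX
    have hbX : b * X = s * b := by
      rw [hX, ← Matrix.mul_assoc, ← Matrix.mul_assoc, hb3, Matrix.one_mul]
    have h1 : mp σ b * mp σ X = mp σ s * mp σ b := by
      rw [← map_mul, hbX, map_mul]
    have h2 : b * mp σ X = b * X := by
      rw [hbX]
      conv_lhs => rw [← hb2]
      rw [Matrix.mul_assoc, h1, ← Matrix.mul_assoc, Matrix.smul_mul, hg s hs, ← Matrix.mul_smul,
        Matrix.mul_assoc, hb2]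
    have h3 : mp σ X = X := by
      have := congrArg (fun Y : Matrix ι ι F => b⁻¹ * Y) h2
      simp only [← Matrix.mul_assoc, hb1, Matrix.one_mul] at this
      exact this
    exact congrFun (congrFun h3 i) j

end Cfsg.Agent.Lib.Helper11.SpG
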