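import Cfsg.Agent.Lib.Helper80.AS.Defs
import Cfsg.Agent.Lib.Lead.OG.Defs

/-! Ladder ASPG: Aschbacher's theorem for the symplectic groups, general dimension (definitions). -/

set_option autoImplicit false

namespace Cfsg.Agent.Lib.Helper11.SpG

open Cfsg Cfsg.Geo
open scoped MatrixGroups Matrix Kronecker

variable {ι : Type} [Fintype ι] [DecidableEq ι] {F : Type*} [Field F]

/-- the isometry group of the two-argument form `f`; `g ∈ iso f` unfolds (by `Iff.rfl`) to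
`∀ u v, f (g *ᵥ u) (g *ᵥ v) = f u v`. -/
def iso (f : (ι → F) → (ι → F) → F) : Subgroup (GL ι F) := preserving (glToMat ι F) f

theorem mem_iso (f : (ι → F) → (ι → F) → F) (g : GL ι F) :
    g ∈ iso f ↔ ∀ u v, f ((g : Matrix ι ι F) *ᵥ u) ((g : Matrix ι ι F) *ᵥ v) = f u v := Iff.rfl

/-- `H` lies in a member of one of the geometric classes of the symplectic group in dimension `2 m` (readable form). -/
def InGeoP [Fintype F] (m : ℕ) (f : (ι → F) → (ι → F) → F) (H : Subgroup (GL ι F)) : Prop :=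
  (∃ W : Submodule F (ι → F), W ≠ ⊥ ∧ IsTotallySingularFor f W ∧ H ≤ subspaceStabilizer W) ∨
  (∃ W : Submodule F (ι → F), W ≠ ⊥ ∧ IsNondegenerateOn f W ∧ Module.finrank F W < m ∧
      H ≤ subspaceStabilizer W) ∨
  (∃ (t k : ℕ) (D : Fin t → Submodule F (ι → F)), IsNondegenerateMDecomposition f k D ∧
      H ≤ decompositionStabilizer D) ∨
  (∃ D : Fin 2 → Submodule F (ι → F), Odd (Fintype.card F) ∧ IsMDecomposition m D ∧
      (∀ i, IsTotallySingularFor f (D i)) ∧ H ≤ decompositionStabilizer D) ∨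
  (∃ (F₀ : Subfield F) (r : ℕ) (P : GL ι F) (ζ : F), r.Prime ∧ Fintype.card F = Nat.card F₀ ^ r ∧ ζ ≠ 0 ∧
      IsFormRationalStructure f F₀ ζ P ∧ H ≤ subfieldSubgroup F₀ P) ∨
  (∃ (R : Subgroup (GL ι F)) (p k : ℕ), IsSymplecticTypeGroup 2 R ∧
      ActsAbsolutelyIrreducibly (matrixSet R) ∧ R ≤ similarityGroup f ∧ p.Prime ∧ Odd p ∧ Fintype.card F = p ∧
      Nat.card R = 2 ^ (1 + 2 * k) ∧ Nat.card (Subgroup.center R) = 2 ∧ IsOfMinusType k R ∧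
      H ≤ subgroupNormalizer R) ∨
  (∃ Q : (ι → F) → F, ¬ Odd (Fintype.card F) ∧ IsNondegenerateQuadraticForm Q ∧
      (∀ u v, QuadraticMap.polar Q u v = f u v) ∧ H ≤ quadSimilarityGroup Q) ∨
  (∃ (r : ℕ) (K : Subalgebra F (Matrix ι ι F)), r.Prime ∧ IsFieldSubalgebra r K ∧
      IsSelfAdjointFor f K ∧ (∀ k ∈ K, ∀ v, f (k *ᵥ v) v = 0) ∧ H ≤ subalgebraNormalizer K) ∨
  (∃ K : Subalgebra F (Matrix ι ι F), Odd (Fintype.card F) ∧ IsFieldSubalgebra 2 K ∧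
      IsAdjointClosedFor f K ∧ ¬ IsSelfAdjointFor f K ∧ H ≤ subalgebraNormalizer K) ∨
  (∃ (n₁ n₂ : ℕ) (e : ι ≃ Fin n₁ × Fin n₂) (P : GL ι F)
      (f₁ : (Fin n₁ → F) → (Fin n₁ → F) → F) (f₂ : (Fin n₂ → F) → (Fin n₂ → F) → F),
      Odd (Fintype.card F) ∧ 3 ≤ n₂ ∧ IsSymplecticForm f₁ ∧ IsSymmetricForm f₂ ∧
      IsTensorFormStructure id f f₁ f₂ e P ∧ H ≤ tensorProductSubgroup n₁ n₂ e P) ∨
  (∃ (k t : ℕ) (e : ι ≃ (Fin t → Fin k)) (P : GL ι F) (f₁ : (Fin k → F) → (Fin k → F) → F),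
      Odd (Fintype.card F) ∧ Odd t ∧ 3 ≤ t ∧ ¬ (Fintype.card F = 3 ∧ k = 2) ∧ IsSymplecticForm f₁ ∧
      IsTensorPowerFormStructure id f f₁ e P ∧ H ≤ tensorWreathSubgroup k t e P)

end Cfsg.Agent.Lib.Helper11.SpG
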