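import Cfsg.Agent.Lib.Helper11.SpG.Defs
import Cfsg.Agent.Lib.Helper80.AS.PAR
import Cfsg.Agent.Lib.Helper80.AS.TSIGN
import Cfsg.Agent.Lib.Helper80.AS.SWAP
import Cfsg.Agent.Lib.Helper80.AS.TNA
import Cfsg.Agent.Lib.Helper80.AS.TQ2

/-! Ladder ASPG, rung EVQ: the `q` even half of the tensor case. -/

set_option autoImplicit false

namespace Cfsg.Agent.Lib.Helper11.SpG

open Cfsg Cfsg.Geo
open Cfsg.Agent.Lib.Helper77.Asch (NormBy MinOver)
open Cfsg.Agent.Lib.Helper80.AS (env cen IsScal IsComm SelfAdj Projs tmat IsLeftFactor GramTensor)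
open Cfsg.Agent.Lib.Helper80.AS
open scoped MatrixGroups Matrix Kronecker

variable {ι : Type} [Fintype ι] [DecidableEq ι] {F : Type*} [Field F]

/-- EVQ. -/
theorem quad_of_tensor_even [Fintype F] [Nonempty ι] (h2 : (2 : F) = 0) (f : (ι → F) → (ι → F) → F)
    (hf : IsSymplecticForm f) (N : Subgroup (GL ι F)) (hN : N ≤ similarityGroup f)
    (hirr : ActsIrreducibly (matrixSet N))
    {s k : ℕ} (hs : 1 < s) (hk : 1 < k) (e : ι ≃ Fin s × Fin k) (P : GL ι F)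
    (J₁ : Matrix (Fin s) (Fin s) F) (J₂ : Matrix (Fin k) (Fin k) F) (hJ : GramTensor f e P J₁ J₂)
    (hNt : N ≤ tensorProductSubgroup s k e P) :
    ∃ Q : (ι → F) → F, IsNondegenerateQuadraticForm Q ∧ (∀ u v, QuadraticMap.polar Q u v = f u v) ∧
      N ≤ quadSimilarityGroup Q := by
  have hNt' : N ≤ tensorProductSubgroup k s (e.trans (Equiv.prodComm _ _)) P := by
    rw [← tensor_swap e P]; exact hNt
  have hJ' := gram_swap f e P J₁ J₂ hJ
  have hq : ¬ Odd (Fintype.card F) := fun h => (odd_card_iff.mp h) h2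
  by_cases hd2 : ∃ i, J₂ i i ≠ 0
  · exact absurd hirr (tensor_nonalt h2 hk f hf e P J₁ J₂ hJ hd2 N hN hNt)
  by_cases hd1 : ∃ i, J₁ i i ≠ 0
  · exact absurd hirr (tensor_nonalt h2 hs f hf (e.trans (Equiv.prodComm _ _)) P J₂ J₁ hJ' hd1 N hN hNt')
  push Not at hd1 hd2
  obtain ⟨Q, hQ1, hQ2, hQ3⟩ := quad_of_tensor_alt hq f hf e P J₁ J₂ hJ hd1 hd2
  exact ⟨Q, hQ1, hQ2, (le_inf hNt hN).trans hQ3⟩

end Cfsg.Agent.Lib.Helper11.SpG
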