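import Cfsg.Agent.Lib.Helper11.SpG.Defs

set_option autoImplicit false

namespace Cfsg.Agent.Lib.Helper11.SpG

open Cfsg Cfsg.Geo
open Cfsg.Agent.Lib.Helper77.Asch (NormBy MinOver)
open Cfsg.Agent.Lib.Helper80.AS (env cen IsScal IsComm SelfAdj Projs tmat IsLeftFactor GramTensor)
open scoped MatrixGroups Matrix Kronecker

variable {ι : Type} [Fintype ι] [DecidableEq ι] {F : Type*} [Field F]

/-- EXP4. -/
theorem exp_four (R : Subgroup (GL ι F)) (hsq : ∀ x ∈ R, x * x ∈ scalars ι F)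
    (hpm : ∀ z ∈ R, z ∈ scalars ι F → (z : Matrix ι ι F) = 1 ∨ (z : Matrix ι ι F) = -1)
    (hnc : ∃ x ∈ R, ∃ y ∈ R, x * y ≠ y * x) :
    IsPGroup 2 R ∧ Monoid.exponent R = 2 * Nat.gcd 2 2 := by
  have h4 : ∀ x : R, x ^ 4 = 1 := by
    rintro ⟨x, hx⟩
    apply Subtype.ext
    apply Units.ext
    have h1 : ((x * x : GL ι F) : Matrix ι ι F) * ((x * x : GL ι F) : Matrix ι ι F) = 1 := by
      rcases hpm (x * x) (R.mul_mem hx hx) (hsq x hx) with h | h <;> rw [h] <;> simp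
    have h2 : x ^ 4 = (x * x) * (x * x) := by
      rw [show (4 : ℕ) = 2 + 2 from rfl, pow_add, sq]
    show ((x ^ 4 : GL ι F) : Matrix ι ι F) = 1
    rw [h2, Units.val_mul]
    exact h1
  refine ⟨fun x => ⟨2, by simpa using h4 x⟩, ?_⟩
  have hd : Monoid.exponent R ∣ 2 ^ 2 := Monoid.exponent_dvd_of_forall_pow_eq_one (by simpa using h4)
  obtain ⟨k, hk, hke⟩ := (Nat.dvd_prime_pow Nat.prime_two).1 hd
  have hk2 : k = 2 := by
    by_contra hne
    have hk1 : k ≤ 1 := by omega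
    have hd2 : Monoid.exponent R ∣ 2 := by
      rw [hke]
      calc 2 ^ k ∣ 2 ^ 1 := pow_dvd_pow 2 hk1
        _ = 2 := by norm_num
    have hs : ∀ x : R, x * x = 1 := fun x => by
      have := Monoid.exponent_dvd_iff_forall_pow_eq_one.1 hd2 x
      rwa [sq] at this
    obtain ⟨x, hx, y, hy, hxy⟩ := hnc
    apply hxy
    have hi : ∀ x : R, x⁻¹ = x := fun x => inv_eq_of_mul_eq_one_left (hs x)
    have h5 : (⟨x, hx⟩ * ⟨y, hy⟩ : R) = ⟨y, hy⟩ * ⟨x, hx⟩ := by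
      rw [← hi (⟨x, hx⟩ * ⟨y, hy⟩), mul_inv_rev, hi, hi]
    exact congrArg Subtype.val h5
  rw [hke, hk2]
  norm_num

end Cfsg.Agent.Lib.Helper11.SpG
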