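import Cfsg.Agent.Lib.Helper11.SpG.Defs

set_option autoImplicit false

namespace Cfsg.Agent.Lib.Helper11.SpG

open Cfsg Cfsg.Geo
open Cfsg.Agent.Lib.Helper77.Asch (NormBy MinOver)
open Cfsg.Agent.Lib.Helper80.AS (env cen IsScal IsComm SelfAdj Projs tmat IsLeftFactor GramTensor)
open scoped MatrixGroups Matrix Kronecker

variable {ι : Type} [Fintype ι] [DecidableEq ι] {F : Type*} [Field F]

/-- GFS. -/
theorem gf_isSymplectic (h2 : (2 : F) ≠ 0) {s : ℕ} (J : Matrix (Fin s) (Fin s) F) (hJ : Jᵀ = -J) (hd : J.det ≠ 0) :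
    IsSymplecticForm (Cfsg.Agent.Lib.Lead.OG.gf J) := by
  have hskew : ∀ u v, Cfsg.Agent.Lib.Lead.OG.gf J u v = - Cfsg.Agent.Lib.Lead.OG.gf J v u := by
    intro u v
    unfold Cfsg.Agent.Lib.Lead.OG.gf
    rw [Matrix.dotProduct_mulVec, ← Matrix.mulVec_transpose, hJ, Matrix.neg_mulVec, neg_dotProduct,
      dotProduct_comm]
  have hnd : ∀ v : Fin s → F, v ≠ 0 → ∃ x, Cfsg.Agent.Lib.Lead.OG.gf J x v ≠ 0 := by
    intro v hv
    by_contra hcon
    push Not at hcon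
    apply hv
    have h0 : J *ᵥ v = 0 := by
      funext i
      have := hcon (Pi.single i 1)
      unfold Cfsg.Agent.Lib.Lead.OG.gf at this
      rwa [single_dotProduct, one_mul] at this
    exact (Matrix.eq_zero_of_mulVec_eq_zero hd h0)
  refine ⟨⟨fun x y v => ?_, fun c x v => ?_, fun v x y => ?_, fun c v x => ?_⟩, hskew, fun v => ?_,
    fun v hv => ?_⟩
  · unfold Cfsg.Agent.Lib.Lead.OG.gf; rw [add_dotProduct]
  · unfold Cfsg.Agent.Lib.Lead.OG.gf; rw [smul_dotProduct, smul_eq_mul]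
  · unfold Cfsg.Agent.Lib.Lead.OG.gf; rw [Matrix.mulVec_add, dotProduct_add]
  · unfold Cfsg.Agent.Lib.Lead.OG.gf; rw [Matrix.mulVec_smul, dotProduct_smul, smul_eq_mul]
  · have h := hskew v v
    have h3 : (2 : F) * Cfsg.Agent.Lib.Lead.OG.gf J v v = 0 := by linear_combination h
    exact (mul_eq_zero.1 h3).resolve_left h2
  · obtain ⟨x, hx⟩ := hnd v hv
    exact ⟨⟨x, hx⟩, ⟨x, by rw [hskew]; exact neg_ne_zero.2 hx⟩⟩

end Cfsg.Agent.Lib.Helper11.SpG
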