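import Cfsg.Agent.Lib.Helper11.SpG.Defs
import Cfsg.Agent.Lib.Helper80.AS.ENVS

set_option autoImplicit false

namespace Cfsg.Agent.Lib.Helper11.SpG

open Cfsg Cfsg.Geo
open Cfsg.Agent.Lib.Helper77.Asch (NormBy MinOver)
open Cfsg.Agent.Lib.Helper80.AS (env cen IsScal IsComm SelfAdj Projs tmat IsLeftFactor GramTensor)
open scoped MatrixGroups Matrix Kronecker

variable {ι : Type} [Fintype ι] [DecidableEq ι] {F : Type*} [Field F]

/-- KNE. -/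
theorem le_scalars_of_comm_conj [Nonempty ι] (L : Subgroup (GL ι F)) (g₁ g₂ : GL ι F)
    (hcomm : ∀ x ∈ L, ∀ y ∈ L, (g₁ * x * g₁⁻¹) * (g₂ * y * g₂⁻¹) = (g₂ * y * g₂⁻¹) * (g₁ * x * g₁⁻¹))
    (htop : env L = ⊤) : L ≤ scalars ι F := by
  have habs := Cfsg.Agent.Lib.Helper80.AS.absIrr_of_env_top L htop
  intro y hy
  set c : GL ι F := g₁⁻¹ * (g₂ * y * g₂⁻¹) * g₁ with hc
  have hcx : ∀ x ∈ L, c * x = x * c := by
    intro x hx
    have h := hcomm x hx y hy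
    have e1 : c * x = g₁⁻¹ * ((g₂ * y * g₂⁻¹) * (g₁ * x * g₁⁻¹)) * g₁ := by rw [hc]; group
    have e2 : x * c = g₁⁻¹ * ((g₁ * x * g₁⁻¹) * (g₂ * y * g₂⁻¹)) * g₁ := by rw [hc]; group
    rw [e1, e2, h]
  obtain ⟨k, hk⟩ := habs.2 (c : Matrix ι ι F) (by
    rintro _ ⟨x, hx, rfl⟩
    have := congrArg (fun g : GL ι F => (g : Matrix ι ι F)) (hcx x hx)
    simpa using this)
  have hk0 : k ≠ 0 := by
    rintro rfl
    rw [zero_smul] at hk
    have h1 : (c : Matrix ι ι F) * ((c⁻¹ : GL ι F) : Matrix ι ι F) = 1 := by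
      rw [← Units.val_mul, mul_inv_cancel, Units.val_one]
    rw [hk, zero_mul] at h1
    exact zero_ne_one h1
  have hcs : c ∈ scalars ι F := (mem_scalars_iff c).2 ⟨Units.mk0 k hk0, hk⟩
  have hy2 : y = (g₂⁻¹ * g₁) * c * (g₂⁻¹ * g₁)⁻¹ := by rw [hc]; group
  rw [hy2]
  exact scalars_normal.conj_mem c hcs _

end Cfsg.Agent.Lib.Helper11.SpG
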