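import Cfsg.Agent.Lib.Helper11.SpG.Defs
import Cfsg.Agent.Lib.Helper80.AS.BURN

set_option autoImplicit false

namespace Cfsg.Agent.Lib.Helper11.SpG

open Cfsg Cfsg.Geo
open Cfsg.Agent.Lib.Helper77.Asch (NormBy MinOver)
open Cfsg.Agent.Lib.Helper80.AS (env cen IsScal IsComm SelfAdj Projs tmat IsLeftFactor GramTensor)
open scoped MatrixGroups Matrix Kronecker

variable {ι : Type} [Fintype ι] [DecidableEq ι] {F : Type*} [Field F]

/-- a transversal of `R/{±1}` containing `S`; it is a basis of the matrix algebra. -/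
theorem li_transversal [Finite F] [Nonempty ι] (h2 : (2 : F) ≠ 0) (R : Subgroup (GL ι F))
    (hRabs : ActsAbsolutelyIrreducibly (matrixSet R))
    (z : GL ι F) (hzR : z ∈ R) (hz : (z : Matrix ι ι F) = -1) (hcard : Nat.card R = 2 * Fintype.card ι ^ 2)
    (S : Finset (GL ι F)) (hS : ∀ x ∈ S, x ∈ R)
    (hpm : ∀ x ∈ S, ∀ y ∈ S, x ≠ y → (x : Matrix ι ι F) ≠ -(y : Matrix ι ι F)) :
    ∃ T : Finset (GL ι F), S ⊆ T ∧ (∀ x ∈ T, x ∈ R) ∧ (∀ r ∈ R, r ∈ T ∨ z * r ∈ T) ∧
      LinearIndependent F (fun x : T => ((x : GL ι F) : Matrix ι ι F)) ∧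
      ⊤ ≤ Submodule.span F (Set.range (fun x : T => ((x : GL ι F) : Matrix ι ι F))) := by
  classical
  have : Fintype F := Fintype.ofFinite F
  have : Fintype (GL ι F) := Fintype.ofFinite _
  let Rf : Finset (GL ι F) := Finset.univ.filter (· ∈ R)
  have hRf : ∀ x, x ∈ Rf ↔ x ∈ R := fun x => by simp [Rf]
  let good : Finset (GL ι F) → Prop :=
    fun T => ∀ x ∈ T, ∀ y ∈ T, x ≠ y → (x : Matrix ι ι F) ≠ -(y : Matrix ι ι F)
  let PP := Rf.powerset.filter (fun T => S ⊆ T ∧ good T)
  have hPP : ∀ T, T ∈ PP ↔ (T ⊆ Rf ∧ S ⊆ T ∧ good T) := fun T => by simp [PP]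
  have hSPP : S ∈ PP := (hPP S).2 ⟨fun x hx => (hRf x).2 (hS x hx), Finset.Subset.refl _, hpm⟩
  obtain ⟨T, hTPP, hTmax⟩ := Finset.exists_max_image PP Finset.card ⟨S, hSPP⟩
  obtain ⟨hTR, hST, hTgood⟩ := (hPP T).1 hTPP
  have hzmul : ∀ r : GL ι F, ((z * r : GL ι F) : Matrix ι ι F) = -(r : Matrix ι ι F) := by
    intro r
    rw [Units.val_mul, hz, neg_mul, one_mul]
  have hzz : ∀ r : GL ι F, z * (z * r) = r := by
    intro r
    apply Units.ext
    rw [hzmul, hzmul, neg_neg]
  have hcover : ∀ r ∈ R, r ∈ T ∨ z * r ∈ T := by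
    intro r hr
    by_contra hcon
    push Not at hcon
    obtain ⟨h1, h3⟩ := hcon
    have hins : insert r T ∈ PP := by
      refine (hPP _).2 ⟨?_, hST.trans (Finset.subset_insert _ _), ?_⟩
      · intro x hx
        rcases Finset.mem_insert.1 hx with rfl | hx
        · exact (hRf _).2 hr
        · exact hTR hx
      · intro x hx y hy hxy hxy'
        rcases Finset.mem_insert.1 hx with rfl | hxT
        · rcases Finset.mem_insert.1 hy with rfl | hy
          · exact hxy rfl
          · apply h3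
            have : z * x = y := by
              apply Units.ext
              rw [hzmul, hxy', neg_neg]
            rw [this]; exact hy
        · rcases Finset.mem_insert.1 hy with rfl | hy
          · apply h3
            have : z * y = x := by
              apply Units.ext
              rw [hzmul, hxy']
            rw [this]; exact hxT
          · exact hTgood x hxT y hy hxy hxy'
    have := hTmax _ hins
    rw [Finset.card_insert_of_notMem h1] at this
    omega
  have hdisj : Disjoint T (T.image (z * ·)) := by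
    rw [Finset.disjoint_left]
    intro x hx hx'
    obtain ⟨y, hy, rfl⟩ := Finset.mem_image.1 hx'
    by_cases hxy : z * y = y
    · have h3 : -(y : Matrix ι ι F) = (y : Matrix ι ι F) := by rw [← hzmul, hxy]
      have h4 : (2 : F) • (y : Matrix ι ι F) = 0 := by
        rw [two_smul]
        nth_rewrite 1 [← h3]
        exact neg_add_cancel _
      have h5 : (y : Matrix ι ι F) = 0 := (smul_eq_zero.1 h4).resolve_left h2
      have h6 : (1 : Matrix ι ι F) = 0 := by
        rw [← Units.mul_inv y, h5, zero_mul]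
      exact one_ne_zero h6
    · exact hTgood _ hx y hy hxy (hzmul y)
  have hunion : Rf = T ∪ T.image (z * ·) := by
    ext r
    rw [hRf, Finset.mem_union, Finset.mem_image]
    constructor
    · intro hr
      rcases hcover r hr with h | h
      · exact Or.inl h
      · exact Or.inr ⟨z * r, h, hzz r⟩
    · rintro (h | ⟨y, hy, rfl⟩)
      · exact (hRf _).1 (hTR h)
      · exact R.mul_mem hzR ((hRf _).1 (hTR hy))
  have hcardT : T.card = Fintype.card ι ^ 2 := by
    have h3 : Rf.card = 2 * T.card := by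
      rw [hunion, Finset.card_union_of_disjoint hdisj,
        Finset.card_image_of_injective _ (mul_right_injective z)]
      ring
    have h4 : Rf.card = Nat.card R := by
      rw [Nat.card_eq_fintype_card, Fintype.card_subtype]
    omega
  have hspan : ⊤ ≤ Submodule.span F (Set.range (fun x : T => ((x : GL ι F) : Matrix ι ι F))) := by
    rw [← Cfsg.Agent.Lib.Helper80.AS.span_eq_top R hRabs, Submodule.span_le]
    rintro _ ⟨r, hr, rfl⟩
    rcases hcover r hr with h | h
    · exact Submodule.subset_span ⟨⟨r, h⟩, rfl⟩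
    · have h3 : (r : Matrix ι ι F) = -((z * r : GL ι F) : Matrix ι ι F) := by rw [hzmul, neg_neg]
      have h4 : -((z * r : GL ι F) : Matrix ι ι F)
          ∈ Submodule.span F (Set.range (fun x : T => ((x : GL ι F) : Matrix ι ι F))) :=
        Submodule.neg_mem _ (Submodule.subset_span ⟨⟨z * r, h⟩, rfl⟩)
      rw [← h3] at h4
      exact h4
  have hli : LinearIndependent F (fun x : T => ((x : GL ι F) : Matrix ι ι F)) :=
    linearIndependent_of_top_le_span_of_card_eq_finrank hspan
      (by rw [Fintype.card_coe, hcardT]; simp [Module.finrank_matrix, sq])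
  exact ⟨T, hST, fun x hx => (hRf x).1 (hTR hx), hcover, hli, hspan⟩

/-- LI (with the extra hypothesis `2 ≠ 0`). -/
theorem li_of_card [Finite F] [Nonempty ι] (h2 : (2 : F) ≠ 0) (R : Subgroup (GL ι F))
    (hRabs : ActsAbsolutelyIrreducibly (matrixSet R))
    (hneg : ∃ z ∈ R, (z : Matrix ι ι F) = -1) (hcard : Nat.card R = 2 * Fintype.card ι ^ 2)
    (S : Finset (GL ι F)) (hS : ∀ x ∈ S, x ∈ R)
    (hpm : ∀ x ∈ S, ∀ y ∈ S, x ≠ y → (x : Matrix ι ι F) ≠ -(y : Matrix ι ι F)) :
    LinearIndependent F (fun x : S => ((x : GL ι F) : Matrix ι ι F)) := by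
  obtain ⟨z, hzR, hz⟩ := hneg
  obtain ⟨T, hST, -, -, hli, -⟩ := li_transversal h2 R hRabs z hzR hz hcard S hS hpm
  exact hli.comp (fun x : S => (⟨x.1, hST x.2⟩ : T))
    (fun x y hxy => Subtype.ext (congrArg (fun t : T => (t : GL ι F)) hxy))

end Cfsg.Agent.Lib.Helper11.SpG
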