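import Mathlib

/-! Ladder ASPG (S5662), rung SAB: commuting involutory isometries of a non-degenerate alternating form span a
space of dimension at most half the dimension of the space. -/


set_option autoImplicit false

namespace Cfsg.Agent.Lib.Helper11.SpG

variable {F : Type*} [Field F]

/-- a separating vector for the span of a set of commuting involutions, on every invariant subspace. -/
theorem sab_sep {V : Type*} [AddCommGroup V] [Module F V] [FiniteDimensional F V] (h2 : (2 : F) ≠ 0)
    (A : Set (Module.End F V)) (hinv : ∀ a ∈ A, a * a = 1) (hcomm : ∀ a ∈ A, ∀ b ∈ A, a * b = b * a) :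
    ∀ (n : ℕ) (W : Submodule F V), Module.finrank F W = n → (∀ a ∈ A, ∀ w ∈ W, a w ∈ W) →
      ∃ v ∈ W, ∀ x ∈ Submodule.span F A, x v = 0 → ∀ w ∈ W, x w = 0 := by
  intro n
  induction n using Nat.strong_induction_on with
  | _ n ih =>
    intro W hW hinvW
    by_cases hsc : ∀ a ∈ A, (∀ w ∈ W, a w = w) ∨ (∀ w ∈ W, a w = -w)
    · have hscal : ∀ x ∈ Submodule.span F A, ∃ c : F, ∀ w ∈ W, x w = c • w := by
        intro x hx
        induction hx using Submodule.span_induction with
        | mem a ha =>
          rcases hsc a ha with h | h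
          · exact ⟨1, fun w hw => by rw [h w hw, one_smul]⟩
          · exact ⟨-1, fun w hw => by rw [h w hw, neg_smul, one_smul]⟩
        | zero => exact ⟨0, fun w _ => by simp⟩
        | add x y _ _ hx hy =>
          obtain ⟨c, hc⟩ := hx
          obtain ⟨d, hd⟩ := hy
          exact ⟨c + d, fun w hw => by rw [LinearMap.add_apply, hc w hw, hd w hw, add_smul]⟩
        | smul r x _ hx =>
          obtain ⟨c, hc⟩ := hx
          exact ⟨r * c, fun w hw => by rw [LinearMap.smul_apply, hc w hw, mul_smul]⟩
      by_cases hW0 : W = ⊥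
      · refine ⟨0, W.zero_mem, fun x _ _ w hw => ?_⟩
        rw [hW0] at hw
        rw [(Submodule.mem_bot F).1 hw, map_zero]
      · obtain ⟨v, hv, hv0⟩ := Submodule.exists_mem_ne_zero_of_ne_bot hW0
        refine ⟨v, hv, fun x hx hxv w hw => ?_⟩
        obtain ⟨c, hc⟩ := hscal x hx
        have h3 : c • v = 0 := by rw [← hc v hv, hxv]
        have hc0 : c = 0 := (smul_eq_zero.1 h3).resolve_right hv0
        rw [hc w hw, hc0, zero_smul]
    · push Not at hsc
      obtain ⟨a, ha, ⟨w₁, hw₁, h1⟩, ⟨w₂, hw₂, h1'⟩⟩ := hsc
      have haa : ∀ w, a (a w) = w := fun w => by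
        have := congrArg (fun f : Module.End F V => f w) (hinv a ha)
        simpa using this
      obtain ⟨Wp, hWp⟩ : ∃ Wp : Submodule F V, ∀ w, w ∈ Wp ↔ w ∈ W ∧ a w = w :=
        ⟨W ⊓ LinearMap.ker (a - 1), fun w => by
          rw [Submodule.mem_inf, LinearMap.mem_ker, LinearMap.sub_apply, Module.End.one_apply,
            sub_eq_zero]⟩
      obtain ⟨Wm, hWm⟩ : ∃ Wm : Submodule F V, ∀ w, w ∈ Wm ↔ w ∈ W ∧ a w = -w :=
        ⟨W ⊓ LinearMap.ker (a + 1), fun w => by
          rw [Submodule.mem_inf, LinearMap.mem_ker, LinearMap.add_apply, Module.End.one_apply,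
            add_eq_zero_iff_eq_neg]⟩
      have hltp : Wp < W := by
        refine lt_of_le_of_ne (fun w hw => ((hWp w).1 hw).1) (fun h => ?_)
        exact h1 ((hWp w₁).1 (h ▸ hw₁)).2
      have hltm : Wm < W := by
        refine lt_of_le_of_ne (fun w hw => ((hWm w).1 hw).1) (fun h => ?_)
        exact h1' ((hWm w₂).1 (h ▸ hw₂)).2
      have hab : ∀ b ∈ A, ∀ w, a (b w) = b (a w) := fun b hb w => by
        have := congrArg (fun f : Module.End F V => f w) (hcomm a ha b hb)
        simpa using this
      have invp : ∀ b ∈ A, ∀ w ∈ Wp, b w ∈ Wp := fun b hb w hw => by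
        obtain ⟨h3, h4⟩ := (hWp w).1 hw
        exact (hWp _).2 ⟨hinvW b hb w h3, by rw [hab b hb, h4]⟩
      have invm : ∀ b ∈ A, ∀ w ∈ Wm, b w ∈ Wm := fun b hb w hw => by
        obtain ⟨h3, h4⟩ := (hWm w).1 hw
        exact (hWm _).2 ⟨hinvW b hb w h3, by rw [hab b hb, h4, map_neg]⟩
      have hspan_inv : ∀ (U : Submodule F V), (∀ b ∈ A, ∀ w ∈ U, b w ∈ U) →
          ∀ x ∈ Submodule.span F A, ∀ w ∈ U, x w ∈ U := by
        intro U hU x hx
        induction hx using Submodule.span_induction with
        | mem b hb => exact hU b hb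
        | zero => exact fun w _ => by simp
        | add x y _ _ hx hy => exact fun w hw => U.add_mem (hx w hw) (hy w hw)
        | smul r x _ hx => exact fun w hw => U.smul_mem r (hx w hw)
      obtain ⟨vp, hvp, hp⟩ := ih (Module.finrank F Wp)
        (hW ▸ Submodule.finrank_lt_finrank_of_lt hltp) Wp rfl invp
      obtain ⟨vm, hvm, hm⟩ := ih (Module.finrank F Wm)
        (hW ▸ Submodule.finrank_lt_finrank_of_lt hltm) Wm rfl invm
      refine ⟨vp + vm, W.add_mem ((hWp _).1 hvp).1 ((hWm _).1 hvm).1, fun x hx hxv w hw => ?_⟩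
      have h5 : x vp ∈ Wp := hspan_inv Wp invp x hx vp hvp
      have h6 : x vm ∈ Wm := hspan_inv Wm invm x hx vm hvm
      rw [map_add] at hxv
      have h7 : x vp = -x vm := eq_neg_of_add_eq_zero_left hxv
      have h8 : x vp = 0 := by
        have h9 : a (x vp) = x vp := ((hWp _).1 h5).2
        have h10 : a (x vp) = -(x vp) := by
          rw [h7, map_neg, ((hWm _).1 h6).2]
        have h11 : (2 : F) • x vp = 0 := by
          rw [two_smul]
          nth_rewrite 1 [← h9]
          rw [h10, neg_add_cancel]
        exact (smul_eq_zero.1 h11).resolve_left h2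
      have h9 : x vm = 0 := by
        rw [h8] at h7
        exact neg_eq_zero.1 h7.symm
      have hwp : w + a w ∈ Wp := (hWp _).2 ⟨W.add_mem hw (hinvW a ha w hw), by
        rw [map_add, haa, add_comm]⟩
      have hwm : w - a w ∈ Wm := (hWm _).2 ⟨W.sub_mem hw (hinvW a ha w hw), by
        rw [map_sub, haa, neg_sub]⟩
      have h10 := hp x hx h8 _ hwp
      have h11 := hm x hx h9 _ hwm
      have h12 : (2 : F) • x w = 0 := by
        have : (2 : F) • x w = x (w + a w) + x (w - a w) := by
          rw [← map_add, two_smul, ← map_add]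
          congr 1
          abel
        rw [this, h10, h11, add_zero]
      exact (smul_eq_zero.1 h12).resolve_left h2

/-- SAB. -/
theorem two_mul_finrank_span_le {V : Type*} [AddCommGroup V] [Module F V] [FiniteDimensional F V]
    (h2 : (2 : F) ≠ 0) (B : LinearMap.BilinForm F V) (hB : B.Nondegenerate) (halt : ∀ v, B v v = 0)
    (A : Set (Module.End F V)) (hinv : ∀ a ∈ A, a * a = 1) (hcomm : ∀ a ∈ A, ∀ b ∈ A, a * b = b * a)
    (hfix : ∀ a ∈ A, ∀ u v, B (a u) (a v) = B u v) :
    2 * Module.finrank F (Submodule.span F A) ≤ Module.finrank F V := by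
  obtain ⟨v, -, hv⟩ := sab_sep h2 A hinv hcomm _ ⊤ rfl (fun _ _ _ _ => Submodule.mem_top)
  have hAlt : B.IsAlt := halt
  -- evaluation at `v`
  let ev : Submodule.span F A →ₗ[F] V :=
    (LinearMap.applyₗ v).comp (Submodule.span F A).subtype
  have hev : ∀ x : Submodule.span F A, ev x = (x : Module.End F V) v := fun _ => rfl
  have hinj : Function.Injective ev := by
    rw [injective_iff_map_eq_zero]
    intro x hx
    apply Subtype.ext
    apply LinearMap.ext
    intro w
    exact hv x x.2 hx w Submodule.mem_top
  have hiso0 : ∀ a ∈ A, ∀ b ∈ A, B (a v) (b v) = 0 := by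
    intro a ha b hb
    have hbb : ∀ w, b (b w) = w := fun w => by
      have := congrArg (fun f : Module.End F V => f w) (hinv b hb)
      simpa using this
    have haa : ∀ w, a (a w) = w := fun w => by
      have := congrArg (fun f : Module.End F V => f w) (hinv a ha)
      simpa using this
    have h3 : B (a v) (b v) = B (b v) (a v) := by
      have h4 := hfix a ha (a v) (b v)
      have h5 := hfix b hb (a (a v)) (a (b v))
      have hab : a (b v) = b (a v) := by
        have := congrArg (fun f : Module.End F V => f v) (hcomm a ha b hb)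
        simpa using this
      rw [← h4, ← h5, haa, hab, hbb]
    have h4 : -B (a v) (b v) = B (b v) (a v) := hAlt.neg_eq _ _
    have h5 : (2 : F) * B (a v) (b v) = 0 := by
      rw [← h3] at h4
      linear_combination -h4
    exact (mul_eq_zero.1 h5).resolve_left h2
  have hiso : ∀ x ∈ Submodule.span F A, ∀ y ∈ Submodule.span F A, B (x v) (y v) = 0 := by
    intro x hx
    induction hx using Submodule.span_induction with
    | mem a ha =>
      intro y hy
      induction hy using Submodule.span_induction with
      | mem b hb => exact hiso0 a ha b hb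
      | zero => simp
      | add y z _ _ hy hz => rw [LinearMap.add_apply, map_add, hy, hz, add_zero]
      | smul r y _ hy => rw [LinearMap.smul_apply, map_smul, hy, smul_zero]
    | zero => intro y _; simp
    | add x z _ _ hx hz =>
      intro y hy
      rw [LinearMap.add_apply, map_add, LinearMap.add_apply, hx y hy, hz y hy, add_zero]
    | smul r x _ hx =>
      intro y hy
      rw [LinearMap.smul_apply, map_smul, LinearMap.smul_apply, hx y hy, smul_zero]
  have hle : LinearMap.range ev ≤ B.orthogonal (LinearMap.range ev) := by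
    rintro _ ⟨y, rfl⟩
    rw [LinearMap.BilinForm.mem_orthogonal_iff]
    rintro _ ⟨x, rfl⟩
    exact hiso x x.2 y y.2
  have h3 := Submodule.finrank_mono hle
  rw [LinearMap.BilinForm.finrank_orthogonal hB, LinearMap.finrank_range_of_inj hinj] at h3
  have h4 : Module.finrank F (Submodule.span F A) ≤ Module.finrank F V :=
    LinearMap.finrank_le_finrank_of_injective hinj
  omega

end Cfsg.Agent.Lib.Helper11.SpG
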