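import Cfsg.Agent.Lib.Helper11.SpG.Defs
import Cfsg.Agent.Lib.Helper11.SpG.LI
import Cfsg.Agent.Lib.Helper11.SpG.SAB
import Cfsg.Agent.Lib.Helper80.AS.EVENW
import Cfsg.Agent.Lib.Helper80.AS.T0

set_option autoImplicit false

namespace Cfsg.Agent.Lib.Helper11.SpG

open Cfsg Cfsg.Geo
open Cfsg.Agent.Lib.Helper77.Asch (NormBy MinOver)
open Cfsg.Agent.Lib.Helper80.AS (env cen IsScal IsComm SelfAdj Projs tmat IsLeftFactor GramTensor)
open scoped MatrixGroups Matrix Kronecker

variable {ι : Type} [Fintype ι] [DecidableEq ι] {F : Type*} [Field F]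

/-- MINUS. -/
theorem minus_type [Finite F] [Nonempty ι] (h2 : (2 : F) ≠ 0) (f : (ι → F) → (ι → F) → F) (hf : IsSymplecticForm f)
    (R : Subgroup (GL ι F)) (hRf : R ≤ iso f) (hRabs : ActsAbsolutelyIrreducibly (matrixSet R))
    (hneg : ∃ z ∈ R, (z : Matrix ι ι F) = -1) (hcard : Nat.card R = 2 * Fintype.card ι ^ 2)
    (k : ℕ) (hk : Fintype.card ι = 2 ^ k) : IsOfMinusType k R := by
  classical
  intro A hAc hAsq
  by_contra hlt
  push Not at hlt
  obtain ⟨z, hzR, hz⟩ := hneg
  haveI : Fintype F := Fintype.ofFinite F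
  haveI : Fintype ↥A := Fintype.ofFinite _
  have hemb : Function.Injective (fun a : ↥A => ((a : ↥R) : GL ι F)) := by
    intro a b hab
    exact Subtype.ext (Subtype.ext hab)
  obtain ⟨A', hA'⟩ : ∃ A' : Finset (GL ι F),
      A' = Finset.univ.image (fun a : ↥A => ((a : ↥R) : GL ι F)) := ⟨_, rfl⟩
  have hA'card : A'.card = Nat.card A := by
    rw [hA', Finset.card_image_of_injective _ hemb, Finset.card_univ, Nat.card_eq_fintype_card]
  have hA'mem : ∀ x ∈ A', ∃ a : ↥A, ((a : ↥R) : GL ι F) = x := by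
    intro x hx
    rw [hA', Finset.mem_image] at hx
    obtain ⟨a, -, ha⟩ := hx
    exact ⟨a, ha⟩
  have hzz : z * z = 1 := by
    apply Units.ext
    rw [Units.val_mul, hz, Units.val_one]
    simp
  have hcls : ∀ x y : GL ι F, (x : Matrix ι ι F) = -(y : Matrix ι ι F) →
      ({x, z * x} : Finset (GL ι F)) = {y, z * y} := by
    intro x y hxy
    have hx : x = z * y := by
      apply Units.ext
      rw [Units.val_mul, hz, hxy]
      simp
    rw [hx, ← mul_assoc, hzz, one_mul, Finset.pair_comm]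
  have hfib : ∀ b ∈ A'.image (fun x : GL ι F => ({x, z * x} : Finset (GL ι F))),
      (A'.filter (fun a => ({a, z * a} : Finset (GL ι F)) = b)).card ≤ 2 := by
    intro b hb
    obtain ⟨x₀, -, rfl⟩ := Finset.mem_image.mp hb
    refine le_trans (Finset.card_le_card ?_) (Finset.card_le_two (a := x₀) (b := z * x₀))
    intro a ha
    rw [Finset.mem_filter] at ha
    rw [← ha.2]
    exact Finset.mem_insert_self _ _
  have hcard1 := Finset.card_le_mul_card_image A' 2 hfib
  obtain ⟨S, hSA, hinj, himg⟩ := Finset.exists_subset_injOn_image_eq_of_surjOn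
    (f := fun x : GL ι F => ({x, z * x} : Finset (GL ι F))) (↑A')
    (A'.image (fun x : GL ι F => ({x, z * x} : Finset (GL ι F)))) (by
      rw [Finset.coe_image]
      exact Set.surjOn_image _ _)
  have hScard : S.card = (A'.image (fun x : GL ι F => ({x, z * x} : Finset (GL ι F)))).card := by
    rw [← himg, Finset.card_image_of_injOn hinj]
  have hSmem : ∀ x ∈ S, ∃ a : ↥A, ((a : ↥R) : GL ι F) = x := fun x hx => hA'mem x (hSA hx)
  have hli := li_of_card h2 R hRabs ⟨z, hzR, hz⟩ hcard S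
    (fun x hx => by
      obtain ⟨a, rfl⟩ := hSmem x hx
      exact (a : ↥R).2)
    (fun x hx y hy hxy heq => hxy (hinj hx hy (hcls x y heq)))
  have hli' : LinearIndependent F
      (fun x : S => (Matrix.toLin' ((x : GL ι F) : Matrix ι ι F) : Module.End F (ι → F))) :=
    hli.map' (Matrix.toLin' : Matrix ι ι F ≃ₗ[F] ((ι → F) →ₗ[F] (ι → F))).toLinearMap
      (LinearEquiv.ker _)
  have hfr := finrank_span_eq_card hli'
  have hmul : ∀ x y : GL ι F, (Matrix.toLin' (x : Matrix ι ι F) : Module.End F (ι → F))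
      * (Matrix.toLin' (y : Matrix ι ι F) : Module.End F (ι → F))
      = Matrix.toLin' ((x * y : GL ι F) : Matrix ι ι F) := by
    intro x y
    rw [Units.val_mul, Matrix.toLin'_mul]
    rfl
  have hsab := two_mul_finrank_span_le h2 (Cfsg.Agent.Lib.Helper80.AS.evenwB f hf.bilinear)
    (Cfsg.Agent.Lib.Helper80.AS.t0_nondegB f hf) (fun v => hf.alternating v)
    (Set.range (fun x : S => (Matrix.toLin' ((x : GL ι F) : Matrix ι ι F) : Module.End F (ι → F))))
    (by
      rintro _ ⟨x, rfl⟩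
      obtain ⟨a, ha⟩ := hSmem x x.2
      have h1 : ((a : ↥R) : GL ι F) * ((a : ↥R) : GL ι F) = 1 :=
        congrArg Subtype.val (hAsq a.1 a.2)
      beta_reduce
      rw [hmul, ← ha, h1, Units.val_one, Matrix.toLin'_one]
      rfl)
    (by
      rintro _ ⟨x, rfl⟩ _ ⟨y, rfl⟩
      obtain ⟨a, ha⟩ := hSmem x x.2
      obtain ⟨b, hb⟩ := hSmem y y.2
      have h1 : ((a : ↥R) : GL ι F) * ((b : ↥R) : GL ι F) = ((b : ↥R) : GL ι F) * ((a : ↥R) : GL ι F) :=
        congrArg (fun t : ↥A => ((t : ↥R) : GL ι F)) (hAc.is_comm.comm a b)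
      beta_reduce
      rw [hmul, hmul, ← ha, ← hb, h1])
    (by
      rintro _ ⟨x, rfl⟩ u v
      obtain ⟨a, ha⟩ := hSmem x x.2
      have h1 := hRf (a : ↥R).2 u v
      rw [ha] at h1
      exact h1)
  rw [hfr, Module.finrank_fintype_fun_eq_card, hk, Fintype.card_coe] at hsab
  have h3 : 0 < 2 ^ k := by positivity
  rw [pow_succ] at hlt
  omega

end Cfsg.Agent.Lib.Helper11.SpG
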