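import Cfsg.Agent.Lib.Helper11.SpG.Defs

set_option autoImplicit false

/-! Ladder ASPG (helper11), rung MONOP (helper86). -/

namespace Cfsg.Agent.Lib.Helper11.SpG

open Cfsg Cfsg.Geo
open scoped MatrixGroups Matrix Kronecker

variable {ι : Type} [Fintype ι] [DecidableEq ι] {F : Type*} [Field F]

theorem InGeoP.mono [Fintype F] {m : ℕ} {f : (ι → F) → (ι → F) → F} {H Γ : Subgroup (GL ι F)} (h : H ≤ Γ)
    (hΓ : InGeoP m f Γ) : InGeoP m f H := by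
  rcases hΓ with ⟨W, h1, h2, h3⟩ | ⟨W, h1, h2, h3, h4⟩ | ⟨t, k, D, h1, h2⟩ | ⟨D, h1, h2, h3, h4⟩ |
    ⟨F₀, r, P, ζ, h1, h2, h3, h4, h5⟩ | ⟨R, p, k, h1, h2, h3, h4, h5, h6, h7, h8, h9, h10⟩ |
    ⟨Q, h1, h2, h3, h4⟩ | ⟨r, K, h1, h2, h3, h4, h5⟩ | ⟨K, h1, h2, h3, h4, h5⟩ |
    ⟨n₁, n₂, e, P, f₁, f₂, h1, h2, h3, h4, h5, h6⟩ |
    ⟨k, t, e, P, f₁, h1, h2, h3, h4, h5, h6, h7⟩
  · exact Or.inl ⟨W, h1, h2, h.trans h3⟩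
  · exact Or.inr (Or.inl ⟨W, h1, h2, h3, h.trans h4⟩)
  · exact Or.inr (Or.inr (Or.inl ⟨t, k, D, h1, h.trans h2⟩))
  · exact Or.inr (Or.inr (Or.inr (Or.inl ⟨D, h1, h2, h3, h.trans h4⟩)))
  · exact Or.inr (Or.inr (Or.inr (Or.inr (Or.inl ⟨F₀, r, P, ζ, h1, h2, h3, h4, h.trans h5⟩))))
  · exact Or.inr (Or.inr (Or.inr (Or.inr (Or.inr (Or.inl
      ⟨R, p, k, h1, h2, h3, h4, h5, h6, h7, h8, h9, h.trans h10⟩)))))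
  · exact Or.inr (Or.inr (Or.inr (Or.inr (Or.inr (Or.inr (Or.inl ⟨Q, h1, h2, h3, h.trans h4⟩))))))
  · exact Or.inr (Or.inr (Or.inr (Or.inr (Or.inr (Or.inr (Or.inr (Or.inl
      ⟨r, K, h1, h2, h3, h4, h.trans h5⟩)))))))
  · exact Or.inr (Or.inr (Or.inr (Or.inr (Or.inr (Or.inr (Or.inr (Or.inr (Or.inl
      ⟨K, h1, h2, h3, h4, h.trans h5⟩))))))))
  · exact Or.inr (Or.inr (Or.inr (Or.inr (Or.inr (Or.inr (Or.inr (Or.inr (Or.inr (Or.inl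
      ⟨n₁, n₂, e, P, f₁, f₂, h1, h2, h3, h4, h5, h.trans h6⟩)))))))))
  · exact Or.inr (Or.inr (Or.inr (Or.inr (Or.inr (Or.inr (Or.inr (Or.inr (Or.inr (Or.inr
      ⟨k, t, e, P, f₁, h1, h2, h3, h4, h5, h6, h.trans h7⟩)))))))))

end Cfsg.Agent.Lib.Helper11.SpG
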