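import Cfsg.Agent.Lib.Helper11.SpG.Defs
import Cfsg.Agent.Lib.Helper80.AS.SCR

set_option autoImplicit false

namespace Cfsg.Agent.Lib.Helper11.SpG

open Cfsg Cfsg.Geo
open Cfsg.Agent.Lib.Helper77.Asch (NormBy MinOver)
open Cfsg.Agent.Lib.Helper80.AS (env cen IsScal IsComm SelfAdj Projs tmat IsLeftFactor GramTensor)
open scoped MatrixGroups Matrix Kronecker

variable {ι : Type} [Fintype ι] [DecidableEq ι] {F : Type*} [Field F]

theorem neg_pm [Nonempty ι] (f : (ι → F) → (ι → F) → F) (hf : IsSymplecticForm f)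
    (z : GL ι F) (hz : z ∈ iso f) (hs : z ∈ scalars ι F) :
    (z : Matrix ι ι F) = 1 ∨ (z : Matrix ι ι F) = -1 := by
  obtain ⟨c, hc⟩ := (mem_scalars_iff z).1 hs
  obtain ⟨i⟩ := (inferInstance : Nonempty ι)
  have hv : (Pi.single i 1 : ι → F) ≠ 0 := by
    intro h
    have := congrFun h i
    simp at this
  obtain ⟨⟨x, hx⟩, -⟩ := hf.nondegenerate _ hv
  have h1 := (mem_iso f z).1 hz x (Pi.single i 1)
  rw [hc, Matrix.smul_mulVec, Matrix.smul_mulVec, Matrix.one_mulVec, Matrix.one_mulVec,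
    hf.bilinear.smul_left, hf.bilinear.smul_right] at h1
  have h2 : ((c : F) * c - 1) * f x (Pi.single i 1) = 0 := by linear_combination h1
  have h3 : ((c : F) - 1) * ((c : F) + 1) = 0 := by
    rcases mul_eq_zero.1 h2 with h | h
    · linear_combination h
    · exact absurd h hx
  rcases mul_eq_zero.1 h3 with h | h
  · left
    rw [hc, sub_eq_zero.1 h, one_smul]
  · right
    rw [hc, eq_neg_of_add_eq_zero_left h, neg_smul, one_smul]

/-- NEG. -/
theorem neg_one_mem [Nonempty ι] (hn : 2 ≤ Fintype.card ι) (f : (ι → F) → (ι → F) → F) (hf : IsSymplecticForm f)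
    (R : Subgroup (GL ι F)) (hRf : R ≤ iso f) (hRabs : ActsAbsolutelyIrreducibly (matrixSet R))
    (hRab : ⁅R, R⁆ ≤ scalars ι F) :
    (2 : F) ≠ 0 ∧ (∃ z ∈ R, (z : Matrix ι ι F) = -1) ∧
      (∀ z ∈ R, z ∈ scalars ι F → (z : Matrix ι ι F) = 1 ∨ (z : Matrix ι ι F) = -1) ∧
      (∃ x ∈ R, ∃ y ∈ R, x * y ≠ y * x) := by
  have hpm : ∀ z ∈ R, z ∈ scalars ι F → (z : Matrix ι ι F) = 1 ∨ (z : Matrix ι ι F) = -1 :=
    fun z hz hs => neg_pm f hf z (hRf hz) hs
  have hnc : ∃ x ∈ R, ∃ y ∈ R, x * y ≠ y * x := by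
    by_contra hcon
    push Not at hcon
    have hle : R ≤ scalars ι F := by
      intro g hg
      obtain ⟨c, hc⟩ := hRabs.2 (g : Matrix ι ι F) (by
        rintro _ ⟨y, hy, rfl⟩
        have := congrArg Units.val (hcon g hg y hy)
        simpa using this)
      have hc0 : c ≠ 0 := by
        rintro rfl
        have h1 : (g : Matrix ι ι F) = 0 := by rw [hc, zero_smul]
        have h2 : (g : Matrix ι ι F) * ((g⁻¹ : GL ι F) : Matrix ι ι F) = 1 := by
          rw [← Units.val_mul, mul_inv_cancel, Units.val_one]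
        rw [h1, zero_mul] at h2
        exact zero_ne_one h2
      exact (mem_scalars_iff g).2 ⟨Units.mk0 c hc0, hc⟩
    apply Cfsg.Agent.Lib.Helper80.AS.not_irr_scalars (ι := ι) (F := F) hn
    intro W hW
    apply hRabs.1 W
    rintro _ ⟨g, hg, rfl⟩
    exact hW _ ⟨g, hle hg, rfl⟩
  obtain ⟨x, hx, y, hy, hxy⟩ := hnc
  have hcm : x * y * x⁻¹ * y⁻¹ ∈ ⁅R, R⁆ := Subgroup.commutator_mem_commutator hx hy
  have hcR : x * y * x⁻¹ * y⁻¹ ∈ R :=
    R.mul_mem (R.mul_mem (R.mul_mem hx hy) (R.inv_mem hx)) (R.inv_mem hy)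
  have hne : x * y * x⁻¹ * y⁻¹ ≠ 1 := by
    intro h
    apply hxy
    have h1 := congrArg (fun t => t * y * x) h
    simpa [mul_assoc] using h1
  have hm1 : ((x * y * x⁻¹ * y⁻¹ : GL ι F) : Matrix ι ι F) = -1 := by
    rcases hpm _ hcR (hRab hcm) with h | h
    · exact absurd (Units.ext h) hne
    · exact h
  refine ⟨?_, ⟨_, hcR, hm1⟩, hpm, x, hx, y, hy, hxy⟩
  intro h2
  apply hne
  apply Units.ext
  rw [hm1, Units.val_one]
  have h3 : (-1 : F) = 1 := by linear_combination -h2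
  ext i j
  by_cases hij : i = j
  · subst hij; simp [h3]
  · simp [hij]

end Cfsg.Agent.Lib.Helper11.SpG
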