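import Cfsg.Agent.Lib.Helper11.SpG.Defs
import Cfsg.Agent.Lib.Helper80.AS.CL2A
import Cfsg.Agent.Lib.Helper77.AschG.RGRP

set_option autoImplicit false

namespace Cfsg.Agent.Lib.Helper11.SpG

open Cfsg Cfsg.Geo
open Cfsg.Agent.Lib.Helper77.Asch (NormBy MinOver)
open Cfsg.Agent.Lib.Helper80.AS (env cen IsScal IsComm SelfAdj Projs tmat IsLeftFactor GramTensor)
open scoped MatrixGroups Matrix Kronecker

variable {ι : Type} [Fintype ι] [DecidableEq ι] {F : Type*} [Field F]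

theorem pow2_central (z : GL ι F) (hz : z ∈ scalars ι F) (g : GL ι F) : g * z = z * g := by
  obtain ⟨c, hc⟩ := (mem_scalars_iff z).1 hz
  apply Units.ext
  rw [Units.val_mul, Units.val_mul, hc]
  simp

/-- POW2. -/
theorem dim_two_pow [Fintype F] [Nonempty ι] (m : ℕ) (hm : 0 < m) (hcard : Fintype.card ι = 2 * m)
    (Γ N : Subgroup (GL ι F)) (hmin : MinOver Γ (scalars ι F) N)
    (habs : ActsAbsolutelyIrreducibly (matrixSet N)) (hab : ⁅N, N⁆ ≤ scalars ι F) :
    (∃ k : ℕ, Fintype.card ι = 2 ^ k) ∧ ∀ x ∈ N, x * x ∈ scalars ι F := by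
  classical
  haveI hZn : (scalars ι F).Normal :=
    ⟨fun z hz g => by rw [pow2_central z hz g, mul_assoc, mul_inv_cancel, mul_one]; exact hz⟩
  obtain ⟨r, hr, hexp⟩ := Cfsg.Agent.Lib.Helper77.AschG.exists_prime_exp Γ (scalars ι F) N
    (fun z hz g => pow2_central z hz g) hmin hab
  haveI : Fact r.Prime := ⟨hr⟩
  have hZ : scalars ι F ≤ N := hmin.lt.le
  have hcq := Cfsg.Agent.Lib.Helper80.AS.card_quot_eq_sq N hZ habs hab
  have hpg : IsPGroup r (N ⧸ (scalars ι F).subgroupOf N) := by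
    intro g
    obtain ⟨x, rfl⟩ := QuotientGroup.mk_surjective g
    refine ⟨1, ?_⟩
    rw [pow_one, ← QuotientGroup.mk_pow, QuotientGroup.eq_one_iff, Subgroup.mem_subgroupOf]
    simpa using hexp x.1 x.2
  obtain ⟨j, hj⟩ := IsPGroup.iff_card.mp hpg
  rw [hcq, hcard] at hj
  have h2r : 2 ∣ r := by
    have h1 : 2 ∣ r ^ j := by
      rw [← hj]
      exact Dvd.dvd.pow (Dvd.intro m rfl) two_ne_zero
    exact Nat.Prime.dvd_of_dvd_pow Nat.prime_two h1
  have hr2 : r = 2 := ((Nat.prime_dvd_prime_iff_eq Nat.prime_two hr).1 h2r).symm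
  subst hr2
  constructor
  · have h1 : 2 * m ∣ 2 ^ j := by
      rw [← hj]
      exact dvd_pow_self _ two_ne_zero
    obtain ⟨k, -, hk⟩ := (Nat.dvd_prime_pow Nat.prime_two).1 h1
    exact ⟨k, by rw [hcard, hk]⟩
  · intro x hx
    have h1 := hexp x hx
    rwa [pow_two] at h1

end Cfsg.Agent.Lib.Helper11.SpG
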