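import Cfsg.Agent.Lib.Helper11.SpG.Defs

set_option autoImplicit false

namespace Cfsg.Agent.Lib.Helper11.SpG

open Cfsg Cfsg.Geo
open Cfsg.Agent.Lib.Helper77.Asch (NormBy MinOver)
open Cfsg.Agent.Lib.Helper80.AS (env cen IsScal IsComm SelfAdj Projs tmat IsLeftFactor GramTensor)
open scoped MatrixGroups Matrix Kronecker

variable {ι : Type} [Fintype ι] [DecidableEq ι] {F : Type*} [Field F]

/-- RNORM. -/
theorem inf_iso_norm (f : (ι → F) → (ι → F) → F) (Γ N : Subgroup (GL ι F)) (hΓ : Γ ≤ similarityGroup f)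
    (hnorm : NormBy Γ N) : NormBy Γ (N ⊓ iso f) := by
  intro g hg x hx
  refine ⟨hnorm g hg x hx.1, ?_⟩
  obtain ⟨c, hc⟩ := hΓ hg
  show g * x * g⁻¹ ∈ iso f
  rw [mem_iso]
  intro u v
  have hx2 := (mem_iso f x).1 hx.2
  have e : ∀ w, ((g * x * g⁻¹ : GL ι F) : Matrix ι ι F) *ᵥ w =
      (g : Matrix ι ι F) *ᵥ ((x : Matrix ι ι F) *ᵥ (((g⁻¹ : GL ι F) : Matrix ι ι F) *ᵥ w)) := by
    intro w
    rw [Units.val_mul, Units.val_mul, ← Matrix.mulVec_mulVec, ← Matrix.mulVec_mulVec]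
  rw [e, e, hc, hx2, ← hc, Matrix.mulVec_mulVec, Matrix.mulVec_mulVec, ← Units.val_mul,
    mul_inv_cancel, Units.val_one, Matrix.one_mulVec, Matrix.one_mulVec]

end Cfsg.Agent.Lib.Helper11.SpG
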