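import Cfsg.Agent.Lib.Helper11.SpG.Defs

set_option autoImplicit false

namespace Cfsg.Agent.Lib.Helper11.SpG

open Cfsg Cfsg.Geo
open Cfsg.Agent.Lib.Helper77.Asch (NormBy MinOver)
open Cfsg.Agent.Lib.Helper80.AS (env cen IsScal IsComm SelfAdj Projs tmat IsLeftFactor GramTensor)
open scoped MatrixGroups Matrix Kronecker

variable {ι : Type} [Fintype ι] [DecidableEq ι] {F : Type*} [Field F]

/-- RSUP. -/
theorem inf_iso_sup (f : (ι → F) → (ι → F) → F) (Γ N : Subgroup (GL ι F)) (hZN : scalars ι F ≤ N) (hNΓ : N ≤ Γ)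
    (hΓI : ∀ g ∈ Γ, ∃ h ∈ iso f, ∃ z ∈ scalars ι F, g = h * z) : (N ⊓ iso f) ⊔ scalars ι F = N := by
  apply le_antisymm
  · exact sup_le inf_le_left hZN
  · intro x hx
    obtain ⟨h, hh, z, hz, rfl⟩ := hΓI x (hNΓ hx)
    have hhN : h ∈ N := by
      have := N.mul_mem hx (N.inv_mem (hZN hz))
      simpa using this
    exact Subgroup.mul_mem_sup ⟨hhN, hh⟩ hz

end Cfsg.Agent.Lib.Helper11.SpG
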