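import Cfsg.Agent.Lib.Helper11.SpG.Defs
import Cfsg.Agent.Lib.Helper80.AS.TMUL
import Cfsg.Agent.Lib.Helper76.PermSolvable

/-! Ladder ASPG, rung SOLV2: a group whose enveloping algebra is a left factor `M_2(F_3) ⊗ 1` is solvable. -/

set_option autoImplicit false

namespace Cfsg.Agent.Lib.Helper11.SpG

open Cfsg Cfsg.Geo
open Cfsg.Agent.Lib.Helper77.Asch (NormBy MinOver)
open Cfsg.Agent.Lib.Helper80.AS (env cen IsScal IsComm SelfAdj Projs tmat IsLeftFactor GramTensor)
open Cfsg.Agent.Lib.Helper80.AS (tmat_mul tmat_one tmat_injective)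
open scoped MatrixGroups Matrix Kronecker LinearAlgebra.Projectivization

variable {ι : Type} [Fintype ι] [DecidableEq ι] {F : Type*} [Field F]

theorem solv2_scalar (a : Matrix (Fin 2) (Fin 2) F)
    (h : ∀ v : Fin 2 → F, v ≠ 0 → ∃ c : F, c • v = a *ᵥ v) : ∃ c : F, a = c • 1 := by
  obtain ⟨c0, h0⟩ := h ![1, 0] (by intro h; have := congrFun h 0; simp at this)
  obtain ⟨c1, h1⟩ := h ![0, 1] (by intro h; have := congrFun h 1; simp at this)
  obtain ⟨c2, h2⟩ := h ![1, 1] (by intro h; have := congrFun h 0; simp at this)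
  have e00 := congrFun h0 0
  have e01 := congrFun h0 1
  have e10 := congrFun h1 0
  have e11 := congrFun h1 1
  have e20 := congrFun h2 0
  have e21 := congrFun h2 1
  simp [Matrix.mulVec, dotProduct, Fin.sum_univ_two] at e00 e01 e10 e11 e20 e21
  refine ⟨c0, ?_⟩
  ext i j
  fin_cases i <;> fin_cases j <;> simp
  · exact e00.symm
  · exact e10.symm
  · exact e01.symm
  · rw [← e11, e00]
    have : c2 = a 0 0 := by rw [e20, ← e10, add_zero]
    have h3 : c2 = a 1 1 := by rw [e21, ← e01, zero_add]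
    rw [← this, h3, e11]

theorem solv2_gl [Fintype F] (hq : Fintype.card F = 3) : Group.IsSolvable (GL (Fin 2) F) := by
  classical
  let φ : GL (Fin 2) F →* Equiv.Perm (ℙ F (Fin 2 → F)) :=
    (MulAction.toPermHom (LinearMap.GeneralLinearGroup F (Fin 2 → F)) (ℙ F (Fin 2 → F))).comp
      Matrix.GeneralLinearGroup.toLin.toMonoidHom
  have hcard : Nat.card (ℙ F (Fin 2 → F)) = 4 := by
    have h0 : Module.finrank F (Fin 2 → F) = 2 := by simp
    rw [Projectivization.card_of_finrank_two F (Fin 2 → F) h0, Nat.card_eq_fintype_card, hq]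
  have hfin : Finite (ℙ F (Fin 2 → F)) := Nat.finite_of_card_ne_zero (by omega)
  have hft : Fintype (ℙ F (Fin 2 → F)) := Fintype.ofFinite _
  have h1 : Group.IsSolvable (Equiv.Perm (ℙ F (Fin 2 → F))) :=
    Cfsg.Agent.Lib.Helper76.isSolvable_perm_of_card_le_four _
      (by rw [← Nat.card_eq_fintype_card, hcard])
  have hker : ∀ a ∈ φ.ker, ∃ c : F, (a : Matrix (Fin 2) (Fin 2) F) = c • 1 := by
    intro a ha
    apply solv2_scalar
    intro v hv
    have h2 : φ a (Projectivization.mk F v hv) = Projectivization.mk F v hv := by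
      rw [MonoidHom.mem_ker.1 ha]
      rfl
    have h3 : φ a (Projectivization.mk F v hv) =
        Projectivization.mk F ((a : Matrix (Fin 2) (Fin 2) F) *ᵥ v)
          (by
            intro h0
            apply hv
            have : ((a⁻¹ : GL (Fin 2) F) : Matrix (Fin 2) (Fin 2) F) *ᵥ
                ((a : Matrix (Fin 2) (Fin 2) F) *ᵥ v) = 0 := by rw [h0, Matrix.mulVec_zero]
            rwa [Matrix.mulVec_mulVec, ← Units.val_mul, inv_mul_cancel, Units.val_one,
              Matrix.one_mulVec] at this) := rfl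
    rw [h3, Projectivization.mk_eq_mk_iff'] at h2
    exact h2
  have h2 : Group.IsSolvable φ.ker := by
    apply Group.isSolvable_of_comm
    intro a b
    obtain ⟨c, hc⟩ := hker a.1 a.2
    obtain ⟨d, hd⟩ := hker b.1 b.2
    apply Subtype.ext
    apply Units.ext
    change (a.1 : Matrix (Fin 2) (Fin 2) F) * (b.1 : Matrix (Fin 2) (Fin 2) F) =
      (b.1 : Matrix (Fin 2) (Fin 2) F) * (a.1 : Matrix (Fin 2) (Fin 2) F)
    rw [hc, hd]
    simp only [Matrix.smul_mul, Matrix.mul_smul, mul_one]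
    exact smul_comm _ _ _
  exact Group.isSolvable_of_ker_le_range φ.ker.subtype φ (by simp)

/-- SOLV2. -/
theorem solvable_two [Fintype F] [Nonempty ι] (hq : Fintype.card F = 3) (L : Subgroup (GL ι F)) {k : ℕ}
    (e₀ : ι ≃ Fin 2 × Fin k) (P₀ : GL ι F) (hB : IsLeftFactor (env L) e₀ P₀) : Group.IsSolvable L := by
  classical
  obtain ⟨p0⟩ : Nonempty (Fin k) := ⟨(e₀ (Classical.arbitrary ι)).2⟩
  have hkinj : ∀ a b : Matrix (Fin 2) (Fin 2) F,
      a ⊗ₖ (1 : Matrix (Fin k) (Fin k) F) = b ⊗ₖ (1 : Matrix (Fin k) (Fin k) F) → a = b := by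
    intro a b hab
    ext i j
    have := congrFun (congrFun hab (i, p0)) (j, p0)
    simpa [Matrix.kroneckerMap_apply] using this
  have hmem : ∀ x : L, ∃ a : Matrix (Fin 2) (Fin 2) F,
      ((x : GL ι F) : Matrix ι ι F) = tmat e₀ P₀ (a ⊗ₖ (1 : Matrix (Fin k) (Fin k) F)) := by
    intro x
    exact (hB _).1 (Algebra.subset_adjoin ⟨x, x.2, rfl⟩)
  choose a ha using hmem
  have hinj2 : ∀ u v : Matrix (Fin 2) (Fin 2) F, tmat e₀ P₀ (u ⊗ₖ (1 : Matrix (Fin k) (Fin k) F)) =
      tmat e₀ P₀ (v ⊗ₖ (1 : Matrix (Fin k) (Fin k) F)) → u = v :=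
    fun u v h => hkinj _ _ (tmat_injective e₀ P₀ h)
  let φ : L →* Matrix (Fin 2) (Fin 2) F :=
    { toFun := a
      map_one' := by
        apply hinj2
        rw [← ha, Matrix.one_kronecker_one, tmat_one]; rfl
      map_mul' := by
        intro x y
        apply hinj2
        rw [← ha, ← mul_one (1 : Matrix (Fin k) (Fin k) F), Matrix.mul_kronecker_mul, tmat_mul,
          ← ha, ← ha]
        rfl }
  have hinj : Function.Injective φ.toHomUnits := by
    intro x y hxy
    have h1 : a x = a y := by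
      have := congrArg (fun g : GL (Fin 2) F => (g : Matrix (Fin 2) (Fin 2) F)) hxy
      exact this
    apply Subtype.ext; apply Units.ext
    rw [ha x, ha y, h1]
  have := solv2_gl (F := F) hq
  exact Group.isSolvable_of_isSolvable_injective hinj

end Cfsg.Agent.Lib.Helper11.SpG
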