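import Cfsg.Agent.Lib.Helper11.SpG.Defs
import Cfsg.Agent.Lib.Helper80.AS.T0X

/-! Ladder ASPG, rung T0P: the reducible case in dimension `2 m`. -/

set_option autoImplicit false

namespace Cfsg.Agent.Lib.Helper11.SpG

open Cfsg Cfsg.Geo
open Cfsg.Agent.Lib.Helper77.Asch (NormBy MinOver)
open Cfsg.Agent.Lib.Helper80.AS (env cen IsScal IsComm SelfAdj Projs tmat IsLeftFactor GramTensor)
open Cfsg.Agent.Lib.Helper80.AS
open scoped MatrixGroups Matrix Kronecker

variable {ι : Type} [Fintype ι] [DecidableEq ι] {F : Type*} [Field F]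

/-- T0P. -/
theorem red_casesP [Fintype F] (m : ℕ) (hcard : Fintype.card ι = 2 * m)
    (f : (ι → F) → (ι → F) → F) (hf : IsSymplecticForm f) (Γ : Subgroup (GL ι F))
    (hΓ : Γ ≤ similarityGroup f) (h : ¬ ActsIrreducibly (matrixSet Γ)) : InGeoP m f Γ := by
  classical
  obtain ⟨W, hW0, hWtop, hWΓ⟩ := red Γ h
  set Wp := t0perp f hf.bilinear W with hWp
  have hWpΓ : Γ ≤ subspaceStabilizer Wp := t0_stab_perp f hf.bilinear Γ hΓ W hWΓ
  by_cases hR : W ⊓ Wp = ⊥
  · have hnW : IsNondegenerateOn f W := t0_nondeg f hf W hR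
    have hpp : t0perp f hf.bilinear Wp = W :=
      LinearMap.BilinForm.orthogonal_orthogonal (t0_nondegB f hf) (t0_isRefl f hf) W
    have hnWp : IsNondegenerateOn f Wp := by
      apply t0_nondeg f hf Wp
      rw [hpp, inf_comm]; exact hR
    have h1 : Module.finrank F Wp = Module.finrank F (ι → F) - Module.finrank F W :=
      LinearMap.BilinForm.finrank_orthogonal (t0_nondegB f hf) W
    have h2 : Module.finrank F W < Module.finrank F (ι → F) := Submodule.finrank_lt hWtop
    rw [Module.finrank_fintype_fun_eq_card, hcard] at h1 h2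
    have hWpos : 0 < Module.finrank F W := by
      rw [Module.finrank_pos_iff_exists_ne_zero]
      obtain ⟨x, hx, hx0⟩ := Submodule.exists_mem_ne_zero_of_ne_bot hW0
      exact ⟨⟨x, hx⟩, fun h => hx0 (congrArg Subtype.val h)⟩
    rcases lt_trichotomy (Module.finrank F W) m with hlt | heq | hgt
    · exact Or.inr (Or.inl ⟨W, hW0, hnW, hlt, hWΓ⟩)
    · refine Or.inr (Or.inr (Or.inl ⟨2, m, ![W, Wp], ?_, ?_⟩))
      · exact t0x_pair f hf m (by omega) W Wp (by omega) heq (by omega) hR hnW hnWp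
          (fun u hu v hv => (t0_mem_perp f hf.bilinear W v).1 hv u hu)
      · intro g hg
        refine ⟨1, fun i => ?_⟩
        fin_cases i
        · exact t0x_map_eq W g (hWΓ hg)
        · exact t0x_map_eq Wp g (hWpΓ hg)
    · refine Or.inr (Or.inl ⟨Wp, ?_, hnWp, by omega, hWpΓ⟩)
      intro hbot
      rw [hbot, finrank_bot] at h1
      omega
  · refine Or.inl ⟨W ⊓ Wp, hR, ?_, t0_stab_inf Γ W Wp hWΓ hWpΓ⟩
    intro u hu v hv
    exact (t0_mem_perp f hf.bilinear W v).1 hv.2 u hu.1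

end Cfsg.Agent.Lib.Helper11.SpG
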