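import Cfsg.Agent.Lib.Helper11.SpG.Defs
import Cfsg.Agent.Lib.Helper80.AS.SAP
import Cfsg.Agent.Lib.Helper80.AS.CA1
import Cfsg.Agent.Lib.Helper80.AS.CA2
import Cfsg.Agent.Lib.Helper80.AS.CA3
import Cfsg.Agent.Lib.Helper80.AS.NDD

set_option autoImplicit false

namespace Cfsg.Agent.Lib.Helper11.SpG

open Cfsg Cfsg.Geo
open Cfsg.Agent.Lib.Helper77.Asch (NormBy MinOver)
open Cfsg.Agent.Lib.Helper80.AS (env cen IsScal IsComm SelfAdj Projs tmat IsLeftFactor GramTensor)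
open scoped MatrixGroups Matrix Kronecker

variable {ι : Type} [Fintype ι] [DecidableEq ι] {F : Type*} [Field F]

open Cfsg.Agent.Lib.Helper80.AS in
/-- T1PA. -/
theorem comm_casesP_a [Fintype F] (m : ℕ) (hm : 0 < m) (hcard : Fintype.card ι = 2 * m)
    (f : (ι → F) → (ι → F) → F) (hf : IsSymplecticForm f) (Γ : Subgroup (GL ι F))
    (hΓ : Γ ≤ similarityGroup f) (hirr : ActsIrreducibly (matrixSet Γ))
    (E : Subalgebra F (Matrix ι ι F)) (hc : IsComm E) (hn : Γ ≤ subalgebraNormalizer E) :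
    InGeoP m f Γ ∨ ∀ x ∈ E, SelfAdj f x → x = 0 ∨ ∃ y : Matrix ι ι F, x * y = 1 := by
  obtain ⟨E₀, hE₀, hn₀⟩ := exists_selfAdj f hf.bilinear Γ hΓ E hc hn
  have hc₀ : IsComm E₀ := fun x hx y hy => hc x ((hE₀ x).1 hx).1 y ((hE₀ y).1 hy).1
  rcases field_or_idempotent E₀ hc₀ (no_nilpotent Γ hirr E₀ hc₀ hn₀) with hfield | ⟨e, he, h1, h2, h3⟩
  · right
    intro x hx hsa
    by_cases h : x = 0
    · exact Or.inl h
    · obtain ⟨y, -, hy⟩ := hfield.inv x ((hE₀ x).2 ⟨hx, hsa⟩) h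
      exact Or.inr ⟨y, hy⟩
  · left
    obtain ⟨t, d, D, hD, hst, hp⟩ := decomp_of_idempotent Γ hirr E₀ hc₀ hn₀ e he h1 h2 h3
    have hnd := nondeg_decomp f hf E₀ (fun x hx => ((hE₀ x).1 hx).2) D hD hp
    exact Or.inr (Or.inr (Or.inl ⟨t, d, D, hnd, hst⟩))

end Cfsg.Agent.Lib.Helper11.SpG
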