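import Cfsg.Agent.Lib.Helper11.SpG.Defs
import Cfsg.Agent.Lib.Helper80.AS.T1C

set_option autoImplicit false

namespace Cfsg.Agent.Lib.Helper11.SpG

open Cfsg Cfsg.Geo
open Cfsg.Agent.Lib.Helper77.Asch (NormBy MinOver)
open Cfsg.Agent.Lib.Helper80.AS (env cen IsScal IsComm SelfAdj Projs tmat IsLeftFactor GramTensor)
open Cfsg.Agent.Lib.Helper80.AS
open scoped MatrixGroups Matrix Kronecker

variable {ι : Type} [Fintype ι] [DecidableEq ι] {F : Type*} [Field F]

/-- T1PC. -/
theorem comm_casesP_c [Fintype F] (m : ℕ) (hm : 0 < m) (hcard : Fintype.card ι = 2 * m)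
    (f : (ι → F) → (ι → F) → F) (hf : IsSymplecticForm f) (Γ : Subgroup (GL ι F))
    (hΓ : Γ ≤ similarityGroup f)
    (E : Subalgebra F (Matrix ι ι F)) (hn : Γ ≤ subalgebraNormalizer E)
    (hadj : IsAdjointClosedFor f E) (e : ℕ) (hE : IsFieldSubalgebra e E) :
    InGeoP m f Γ ∨ IsScal E := by
  have : Nonempty ι := by
    rw [← Fintype.card_pos_iff, hcard]; omega
  have hdvd : e ∣ 2 * m := hcard ▸ deg_dvd e E hE
  have hepos : 0 < e := Nat.pos_of_dvd_of_pos hdvd (by omega)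
  by_cases h1 : e = 1
  · right
    subst h1
    have hbot : E = ⊥ := Subalgebra.finrank_eq_one_iff.1 hE.finrank_eq
    intro x hx
    rw [hbot] at hx
    obtain ⟨c, rfl⟩ := Algebra.mem_bot.1 hx
    exact ⟨c, Algebra.algebraMap_eq_smul_one c⟩
  · left
    have hr : (Nat.minFac e).Prime := Nat.minFac_prime h1
    have hre : Nat.minFac e ∣ e := Nat.minFac_dvd e
    obtain ⟨K', hK', hmem⟩ := exists_subfield_alg E e (Nat.minFac e) hE hepos hre
    have hadj' := subfield_alg_adj f hf E K' _ hmem hadj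
    have hn' := hn.trans (subfield_alg_norm E K' _ hmem)
    by_cases hsa : IsSelfAdjointFor f K'
    · exact Or.inr (Or.inr (Or.inr (Or.inr (Or.inr (Or.inr (Or.inr (Or.inl
        ⟨Nat.minFac e, K', hr, hK', hsa, alt_of_selfAdj f hf K' _ hK' hsa, hn'⟩)))))))
    · have h2 : Nat.minFac e = 2 := by
        rcases hr.eq_two_or_odd' with h | h
        · exact h
        · exact absurd (selfAdj_of_odd f hf K' _ hK' h hadj') hsa
      rw [h2] at hK'
      by_cases hq : Odd (Fintype.card F)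
      · exact Or.inr (Or.inr (Or.inr (Or.inr (Or.inr (Or.inr (Or.inr (Or.inr (Or.inl
          ⟨K', hq, hK', hadj', hsa, hn'⟩))))))))
      · obtain ⟨Q, hQ1, hQ2, hQ3⟩ := quad_of_unitary_field hq f hf K' hK' hadj' hsa
        exact Or.inr (Or.inr (Or.inr (Or.inr (Or.inr (Or.inr (Or.inl
          ⟨Q, hq, hQ1, hQ2, (le_inf hn' hΓ).trans hQ3⟩))))))

end Cfsg.Agent.Lib.Helper11.SpG
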