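import Cfsg.Agent.Lib.Helper11.SpG.Defs
import Cfsg.Agent.Lib.Helper11.SpG.LI
import Cfsg.Agent.Lib.Helper80.AS.BURN
import Cfsg.Agent.Lib.Lead.OG.TBC

/-! Ladder ASPG (helper11), rung TWIST (helper56). -/

set_option autoImplicit false
set_option linter.unusedSectionVars false

namespace Cfsg.Agent.Lib.Helper11.SpG

open Cfsg Cfsg.Geo
open Cfsg.Agent.Lib.Helper77.Asch (NormBy MinOver)
open Cfsg.Agent.Lib.Helper80.AS (env cen IsScal IsComm SelfAdj Projs tmat IsLeftFactor GramTensor)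
open scoped MatrixGroups Matrix Kronecker

variable {ι : Type} [Fintype ι] [DecidableEq ι] {F : Type*} [Field F]

theorem twist_map_mul (σ : F ≃+* F) (a b : Matrix ι ι F) :
    (a * b).map σ = a.map σ * b.map σ := by
  ext i j
  simp [Matrix.mul_apply, map_sum]

theorem twist_map_neg (σ : F ≃+* F) (a : Matrix ι ι F) : (-a).map σ = -(a.map σ) := by
  ext i j
  simp

/-- TWIST (with the extra hypothesis `h2`, as in the landed LI: the statement of LI is false in characteristic 2). -/
theorem exists_twist [Finite F] [Nonempty ι] (h2 : (2 : F) ≠ 0) (σ : F ≃+* F) (R : Subgroup (GL ι F))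
    (hRabs : ActsAbsolutelyIrreducibly (matrixSet R))
    (hneg : ∃ z ∈ R, (z : Matrix ι ι F) = -1) (hcard : Nat.card R = 2 * Fintype.card ι ^ 2) :
    ∃ M : Matrix ι ι F, M.det ≠ 0 ∧ ∀ s ∈ matrixSet R, s.map σ * M = M * s := by
  classical
  have hne : {S : Finset (GL ι F) | (∀ x ∈ S, x ∈ R) ∧ ∀ x ∈ S, ∀ y ∈ S, x ≠ y →
      (x : Matrix ι ι F) ≠ -(y : Matrix ι ι F)}.Nonempty := ⟨∅, by simp, by simp⟩
  obtain ⟨S, ⟨hS, hpm⟩, hmax⟩ := (Set.toFinite _).exists_maximal hne
  have hcover : ∀ x ∈ R, (x ∈ S) ∨ (∃ t ∈ S, (x : Matrix ι ι F) = -(t : Matrix ι ι F)) := by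
    intro x hx
    by_contra hcon
    push Not at hcon
    obtain ⟨h1, h2⟩ := hcon
    have hins : insert x S ≤ S := by
      apply hmax _ (Finset.subset_insert x S)
      refine ⟨?_, ?_⟩
      · intro a ha
        rcases Finset.mem_insert.1 ha with rfl | ha
        · exact hx
        · exact hS a ha
      · intro a ha c hc hac
        rcases Finset.mem_insert.1 ha with ha' | ha'
        · rcases Finset.mem_insert.1 hc with hc' | hc'
          · exact absurd (ha'.trans hc'.symm) hac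
          · rw [ha']
            exact h2 c hc'
        · rcases Finset.mem_insert.1 hc with hc' | hc'
          · intro h3
            rw [hc'] at h3
            exact h2 a ha' (by rw [h3, neg_neg])
          · exact hpm a ha' c hc' hac
    exact h1 (hins (Finset.mem_insert_self x S))
  have hli := li_of_card h2 R hRabs hneg hcard S hS hpm
  have hspan : ⊤ ≤ Submodule.span F (Set.range (fun x : S => ((x : GL ι F) : Matrix ι ι F))) := by
    rw [← Cfsg.Agent.Lib.Helper80.AS.span_eq_top R hRabs, Submodule.span_le]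
    rintro _ ⟨x, hx, rfl⟩
    rcases hcover x hx with h | ⟨t, ht, h⟩
    · exact Submodule.subset_span ⟨⟨x, h⟩, rfl⟩
    · show (x : Matrix ι ι F) ∈ _
      rw [h]
      exact Submodule.neg_mem _ (Submodule.subset_span ⟨⟨t, ht⟩, rfl⟩)
  obtain ⟨b, hb⟩ : ∃ b : Module.Basis S F (Matrix ι ι F), ∀ i : S, b i = ((i : GL ι F) : Matrix ι ι F) :=
    ⟨Module.Basis.mk hli hspan, fun i => Module.Basis.mk_apply hli hspan i⟩
  obtain ⟨ψ, hψb⟩ : ∃ ψ : Matrix ι ι F →ₗ[F] Matrix ι ι F,
      ∀ i : S, ψ ((i : GL ι F) : Matrix ι ι F) = ((i : GL ι F) : Matrix ι ι F).map σ := by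
    refine ⟨b.constr F (fun t : S => ((t : GL ι F) : Matrix ι ι F).map σ), fun i => ?_⟩
    have := Module.Basis.constr_basis b F (fun t : S => ((t : GL ι F) : Matrix ι ι F).map σ) i
    rw [hb i] at this
    exact this
  have hψ : ∀ x ∈ R, ψ (x : Matrix ι ι F) = (x : Matrix ι ι F).map σ := by
    intro x hx
    rcases hcover x hx with h | ⟨t, ht, h⟩
    · exact hψb ⟨x, h⟩
    · rw [h, map_neg, hψb ⟨t, ht⟩, twist_map_neg]
  have hmul0 : (LinearMap.mul F (Matrix ι ι F)).compr₂ ψ
      = (LinearMap.mul F (Matrix ι ι F)).compl₁₂ ψ ψ := by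
    apply b.ext
    intro i
    apply b.ext
    intro j
    simp only [LinearMap.compr₂_apply, LinearMap.compl₁₂_apply, LinearMap.mul_apply']
    rw [hb, hb, ← Units.val_mul, hψ _ (R.mul_mem (hS i i.2) (hS j j.2)), hψb, hψb, Units.val_mul,
      twist_map_mul]
  have hmul : ∀ x y, ψ (x * y) = ψ x * ψ y := by
    intro x y
    have := congrArg (fun L => L x y) hmul0
    simpa only [LinearMap.compr₂_apply, LinearMap.compl₁₂_apply, LinearMap.mul_apply'] using this
  have hone : ψ 1 = 1 := by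
    have := hψ 1 R.one_mem
    rw [Units.val_one] at this
    rw [this]
    exact Matrix.map_one σ (map_zero σ) (map_one σ)
  obtain ⟨y, hy⟩ := Cfsg.Agent.Lib.Lead.OG.tbc_sn (AlgHom.ofLinearMap ψ hone hmul)
  refine ⟨(y : Matrix ι ι F), ?_, ?_⟩
  · exact ((Matrix.isUnit_iff_isUnit_det _).1 y.isUnit).ne_zero
  · rintro _ ⟨x, hx, rfl⟩
    have h1 := hy (x : Matrix ι ι F)
    rw [AlgHom.ofLinearMap_apply, hψ x hx] at h1
    show (x : Matrix ι ι F).map σ * _ = _
    have h2 : ((y⁻¹ : GL ι F) : Matrix ι ι F) * (y : Matrix ι ι F) = 1 := by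
      rw [← Units.val_mul, inv_mul_cancel, Units.val_one]
    rw [h1, mul_assoc, h2, mul_one]

end Cfsg.Agent.Lib.Helper11.SpG
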