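import Cfsg.Agent.Lib.Helper11.SpG.DESC
import Cfsg.Agent.Lib.Helper11.SpG.LI
import Cfsg.Agent.Lib.Helper11.SpG.TWIST
import Cfsg.Agent.Lib.Helper11.SpG.SAB
import Cfsg.Agent.Lib.Helper11.SpG.MINUS
import Cfsg.Agent.Lib.Helper11.SpG.MONOP
import Cfsg.Agent.Lib.Helper11.SpG.T0P
import Cfsg.Agent.Lib.Helper11.SpG.T1PA
import Cfsg.Agent.Lib.Helper11.SpG.T1PB
import Cfsg.Agent.Lib.Helper11.SpG.T1PC
import Cfsg.Agent.Lib.Helper11.SpG.EVQ
import Cfsg.Agent.Lib.Helper11.SpG.TFINP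
import Cfsg.Agent.Lib.Helper11.SpG.RSUP
import Cfsg.Agent.Lib.Helper11.SpG.RNORM
import Cfsg.Agent.Lib.Helper11.SpG.NEG
import Cfsg.Agent.Lib.Helper11.SpG.POW2
import Cfsg.Agent.Lib.Helper11.SpG.CARDR
import Cfsg.Agent.Lib.Helper11.SpG.CENC
import Cfsg.Agent.Lib.Helper11.SpG.CHARI
import Cfsg.Agent.Lib.Helper11.SpG.EXP4
import Cfsg.Agent.Lib.Helper11.SpG.AUT
import Cfsg.Agent.Lib.Helper11.SpG.ADJS
import Cfsg.Agent.Lib.Helper11.SpG.GFS
import Cfsg.Agent.Lib.Helper11.SpG.PSIGN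
import Cfsg.Agent.Lib.Helper11.SpG.SOLV2
import Cfsg.Agent.Lib.Helper11.SpG.ABSM
import Cfsg.Agent.Lib.Helper11.SpG.QCOMM
import Cfsg.Agent.Lib.Helper11.SpG.KNE
import Cfsg.Agent.Lib.Lead.OG.ADJ0
import Cfsg.Agent.Lib.Lead.OG.ECOMM
import Cfsg.Agent.Lib.Lead.OG.EGEN
import Cfsg.Agent.Lib.Lead.OG.ENVC
import Cfsg.Agent.Lib.Lead.OG.LCEN
import Cfsg.Agent.Lib.Lead.OG.PHI
import Cfsg.Agent.Lib.Lead.OG.TBA
import Cfsg.Agent.Lib.Lead.OG.TBB
import Cfsg.Agent.Lib.Lead.OG.TBC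
import Cfsg.Agent.Lib.Lead.OG.WN1I
import Cfsg.Agent.Lib.Lead.OG.GPW
import Cfsg.Agent.Lib.Helper77.AschG.AGKP
import Cfsg.Agent.Lib.Helper80.AS.Main

set_option autoImplicit false
set_option linter.unusedSectionVars false
set_option linter.unusedVariables false

namespace Cfsg.Agent.Lib.Helper11.SpG

open Cfsg Cfsg.Geo
open Cfsg.Agent.Lib.Helper77.Asch (NormBy MinOver)
open Cfsg.Agent.Lib.Helper80.AS (env cen IsScal IsComm SelfAdj Projs tmat IsLeftFactor GramTensor)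
open Cfsg.Agent.Lib.Helper77.AschG (pt slot fp)
open Cfsg.Agent.Lib.Lead.OG (twi gf)
open Cfsg.Agent.Lib.Helper80 Cfsg.Agent.Lib.Helper77 Cfsg.Agent.Lib.Lead
open scoped MatrixGroups Matrix Kronecker

variable {ι : Type} [Fintype ι] [DecidableEq ι] {F : Type*} [Field F]

/-- classes 2, 3 (and 8). -/
theorem comm_casesP [Fintype F] (m : ℕ) (hm : 0 < m) (hcard : Fintype.card ι = 2 * m)
    (f : (ι → F) → (ι → F) → F) (hf : IsSymplecticForm f) (Γ : Subgroup (GL ι F))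
    (hΓ : Γ ≤ similarityGroup f) (hirr : ActsIrreducibly (matrixSet Γ))
    (E : Subalgebra F (Matrix ι ι F)) (hc : IsComm E) (hn : Γ ≤ subalgebraNormalizer E)
    (hadj : IsAdjointClosedFor f E) : InGeoP m f Γ ∨ IsScal E := by
  rcases comm_casesP_a m hm hcard f hf Γ hΓ hirr E hc hn with h | h0
  · exact Or.inl h
  rcases comm_casesP_b m hm hcard f hf Γ hΓ hirr E hc hn hadj h0 with h | hfield
  · exact Or.inl h
  exact comm_casesP_c m hm hcard f hf Γ hΓ E hn hadj _ hfield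

/-- class 4. -/
theorem tensor_casesP [Fintype F] (m : ℕ) (hm : 0 < m) (hcard : Fintype.card ι = 2 * m)
    (f : (ι → F) → (ι → F) → F) (hf : IsSymplecticForm f) (Γ : Subgroup (GL ι F))
    (hΓ : Γ ≤ similarityGroup f) (hirr : ActsIrreducibly (matrixSet Γ))
    (N : Subgroup (GL ι F))
    (hN : N ≤ Γ) (hnorm : NormBy Γ N) (hcen : IsScal (cen (env N))) :
    InGeoP m f Γ ∨ N ≤ scalars ι F ∨ ActsAbsolutelyIrreducibly (matrixSet N) := by
  have hne : Nonempty ι := by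
    apply Fintype.card_pos_iff.mp
    omega
  have hn := AS.env_norm Γ N hnorm
  obtain ⟨s, k, e, P, hB⟩ := AS.exists_leftFactor Γ hirr (env N) hn hcen
  have hsk : s * k = 2 * m := by
    rw [← hcard, Fintype.card_congr e, Fintype.card_prod, Fintype.card_fin, Fintype.card_fin]
  have hadj := AS.env_adj f hf.bilinear N (hN.trans hΓ)
  have hΓt : Γ ≤ tensorProductSubgroup s k e P := hn.trans (AS.norm_le_tensor (env N) e P hB)
  obtain ⟨J₁, J₂, hJ⟩ := AS.tensor_gram f hf (env N) e P hB hadj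
  have hs0 : s ≠ 0 := by rintro rfl; simp at hsk; omega
  have hk0 : k ≠ 0 := by rintro rfl; simp at hsk; omega
  by_cases hs1 : s = 1
  · subst hs1
    exact Or.inr (Or.inl (AS.le_scalars_of_env N (AS.scal_of_leftFactor_one (env N) e P hB)))
  by_cases hk1 : k = 1
  · subst hk1
    exact Or.inr (Or.inr (AS.absIrr_of_env_top N (AS.top_of_leftFactor_one (env N) e P hB)))
  exact Or.inl (tensor_finalP m f hf Γ hΓ hirr
    (fun E hc hn hadj => comm_casesP m hm hcard f hf Γ hΓ hirr E hc hn hadj)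
    (by omega) (by omega) e P J₁ J₂ hJ hΓt)

/-- the subfield class from a realisable normal absolutely irreducible subgroup of isometries. -/
theorem subfield_case [Fintype F] [Nonempty ι] (m : ℕ) (f : (ι → F) → (ι → F) → F) (hf : IsSymplecticForm f)
    (Γ P : Subgroup (GL ι F)) (hPabs : ActsAbsolutelyIrreducibly (matrixSet P))
    (hPfix : FixesForm (matrixSet P) f) (hnormH : Γ ≤ subgroupNormalizer P)
    (h : ∃ F₀ : Subfield F, F₀ ≠ ⊤ ∧ RealisableOver F₀ (matrixSet P)) : InGeoP m f Γ := by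
  obtain ⟨F₀, hF₀, B, hB⟩ := h
  obtain ⟨F₁, r, hle1, hr, hcardF⟩ := Helper77.Asch.exists_prime_subfield F₀ hF₀
  have hB1 : ∀ s ∈ matrixSet P, ∀ i j,
      ((B : Matrix ι ι F) * s * ((B⁻¹ : GL ι F) : Matrix ι ι F)) i j ∈ F₁ :=
    fun s hs i j => hle1 (hB s hs i j)
  obtain ⟨ζ, hζ, hrat⟩ := AS.form_rational f hf.bilinear hf.nondegenerate P hPabs hPfix F₁ B hB1
  exact Or.inr (Or.inr (Or.inr (Or.inr (Or.inl
    ⟨F₁, r, B⁻¹, ζ, hr, hcardF, hζ, hrat, hnormH.trans (AS.normalizer_le_subfield P hPabs F₁ B hB1)⟩))))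

/-- class 6. -/
theorem class_two_case [Fintype F] [Nonempty ι] (m : ℕ) (hm : 0 < m) (hcard : Fintype.card ι = 2 * m)
    (f : (ι → F) → (ι → F) → F) (hf : IsSymplecticForm f) (Γ : Subgroup (GL ι F))
    (hΓ : Γ ≤ similarityGroup f)
    (hΓI : ∀ g ∈ Γ, ∃ h ∈ iso f, ∃ z ∈ scalars ι F, g = h * z)
    (N : Subgroup (GL ι F)) (hmin : MinOver Γ (scalars ι F) N)
    (habs : ActsAbsolutelyIrreducibly (matrixSet N)) (hab : ⁅N, N⁆ ≤ scalars ι F) : InGeoP m f Γ := by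
  classical
  obtain ⟨R, hRdef⟩ : ∃ R, R = N ⊓ iso f := ⟨_, rfl⟩
  have hsup : R ⊔ scalars ι F = N := hRdef ▸ inf_iso_sup f Γ N hmin.lt.le hmin.le hΓI
  have hnorm : NormBy Γ R := hRdef ▸ inf_iso_norm f Γ N hΓ hmin.norm
  have hRN : R ≤ N := hRdef ▸ inf_le_left
  have hRf : R ≤ iso f := hRdef ▸ inf_le_right
  have hRabs : ActsAbsolutelyIrreducibly (matrixSet R) := AS.absIrr_of_sup R (by rw [hsup]; exact habs)
  have hRab : ⁅R, R⁆ ≤ scalars ι F := (Subgroup.commutator_mono hRN hRN).trans hab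
  obtain ⟨h2, hneg, hpm, hnc⟩ := neg_one_mem (by omega) f hf R hRf hRabs hRab
  obtain ⟨⟨k, hk⟩, hsq⟩ := dim_two_pow m hm hcard Γ N hmin habs hab
  have hcardR := card_R h2 N R hsup habs hab hneg hpm
  have hcen := card_center_two h2 R hRabs hneg hpm
  obtain ⟨hpg, hexp⟩ := exp_four R (fun x hx => hsq x (hRN hx)) hpm hnc
  have hminus := minus_type h2 f hf R hRf hRabs hneg hcardR k hk
  have hnormH : Γ ≤ subgroupNormalizer R := AS.mn_le_normalizer hnorm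
  have hRfix : FixesForm (matrixSet R) f := by
    rintro _ ⟨x, hx, rfl⟩ u v
    exact hRf hx u v
  have hRsim : R ≤ similarityGroup f := hRN.trans (hmin.le.trans hΓ)
  by_cases hq : (Fintype.card F).Prime
  · refine Or.inr (Or.inr (Or.inr (Or.inr (Or.inr (Or.inl ⟨R, Fintype.card F, k,
      ⟨Nat.prime_two, hpg, fun A hA hc => char_abelian_cyclic_i Γ N R hmin habs hsup hnorm A hA hc, hexp⟩,
      hRabs, hRsim, hq, AS.odd_card_iff.2 h2, rfl, ?_, hcen, hminus, hnormH⟩)))))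
    rw [hcardR, hk]
    ring
  · obtain ⟨σ, hσ⟩ := exists_aut_ne hq
    obtain ⟨M, hM, hMs⟩ := exists_twist h2 σ R hRabs hneg hcardR
    exact subfield_case m f hf Γ R hRabs hRfix hnormH (realisable_of_twist σ hσ R hRabs M hM hMs)


theorem mp_gi (z : GL ι F) (y : Matrix ι ι F) : ((z⁻¹ : GL ι F) : Matrix ι ι F) * ((z : Matrix ι ι F) * y *
    ((z⁻¹ : GL ι F) : Matrix ι ι F)) * (z : Matrix ι ι F) = y := by
  have h1 : ((z⁻¹ : GL ι F) : Matrix ι ι F) * (z : Matrix ι ι F) = 1 := by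
    rw [← Units.val_mul, inv_mul_cancel, Units.val_one]
  calc _ = (((z⁻¹ : GL ι F) : Matrix ι ι F) * (z : Matrix ι ι F)) * y *
        (((z⁻¹ : GL ι F) : Matrix ι ι F) * (z : Matrix ι ι F)) := by simp only [Matrix.mul_assoc]
    _ = y := by rw [h1, Matrix.one_mul, Matrix.mul_one]

theorem mp_gi' (z : GL ι F) (y : Matrix ι ι F) : (z : Matrix ι ι F) * (((z⁻¹ : GL ι F) : Matrix ι ι F) * y *
    (z : Matrix ι ι F)) * ((z⁻¹ : GL ι F) : Matrix ι ι F) = y := by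
  have h1 : (z : Matrix ι ι F) * ((z⁻¹ : GL ι F) : Matrix ι ι F) = 1 := by
    rw [← Units.val_mul, mul_inv_cancel, Units.val_one]
  calc _ = ((z : Matrix ι ι F) * ((z⁻¹ : GL ι F) : Matrix ι ι F)) * y *
        ((z : Matrix ι ι F) * ((z⁻¹ : GL ι F) : Matrix ι ι F)) := by simp only [Matrix.mul_assoc]
    _ = y := by rw [h1, Matrix.one_mul, Matrix.mul_one]

/-- class 7, `q` odd (copy of the lead's `OG.induced_case`). -/
theorem induced_caseP [Fintype F] [Nonempty ι] (h2 : (2 : F) ≠ 0) (m : ℕ)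
    (f : (ι → F) → (ι → F) → F) (hf : IsSymplecticForm f) (Γ : Subgroup (GL ι F))
    (hΓ : Γ ≤ similarityGroup f)
    (N : Subgroup (GL ι F)) (hm : MinOver Γ (scalars ι F) N)
    (hnab : ¬ ⁅N, N⁆ ≤ scalars ι F) (hNabs : ActsAbsolutelyIrreducibly (matrixSet N))
    (hns : ¬ ∀ M : Subgroup (GL ι F), scalars ι F ≤ M → M ≤ N → NormBy N M → M = scalars ι F ∨ M = N) :
    InGeoP m f Γ := by
  classical
  have hNH : N ≤ Γ := hm.le
  have hZc : ∀ z ∈ scalars ι F, ∀ g : GL ι F, g * z = z * g := fun z hz g => AS.mn_scalars_central z hz g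
  obtain ⟨L, t, g, ht2, hgH, hLN, hLZ, hLnorm, hcomm, hgen, hfac, hperm⟩ :=
    AschG.exists_commuting_conj' Γ (scalars ι F) N hZc hm hnab hns
  have hcen := OG.cen_env_scal N L hNabs hfac
  obtain ⟨s, k', e₀, P₀, hB⟩ := AS.exists_leftFactor N hNabs.1 (env L) (AS.env_norm N L hLnorm) hcen
  obtain ⟨J₁, J₂, hJ⟩ := AS.tensor_gram f hf (env L) e₀ P₀ hB
    (AS.env_adj f hf.bilinear L ((hLN.trans hNH).trans hΓ))
  obtain ⟨d1, d2, hsg⟩ := AS.tensor_sign f hf e₀ P₀ J₁ J₂ hJ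
  have hex : ¬ (Fintype.card F = 3 ∧ s = 2) := by
    rintro ⟨hq, rfl⟩
    have hsolv : Group.IsSolvable L := solvable_two hq L e₀ P₀ hB
    exact hLZ (Asch.ag2_alpha Γ (scalars ι F) N hZc hm hnab L hLN hLnorm hsolv)
  choose φ hφ using fun i => OG.exists_phi e₀ P₀ (g i)
  have hmemφ : ∀ i x, φ i x ∈ env (L.map (MulAut.conj (g i)).toMonoidHom) := by
    intro i x
    rw [OG.env_conj_iff, hφ, mp_gi]
    exact (hB _).2 ⟨x, rfl⟩
  have hrange : ∀ i y, y ∈ env (L.map (MulAut.conj (g i)).toMonoidHom) → ∃ x, y = φ i x := by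
    intro i y hy
    rw [OG.env_conj_iff] at hy
    obtain ⟨x, hx⟩ := (hB _).1 hy
    refine ⟨x, ?_⟩
    rw [hφ, ← hx, mp_gi']
  have hcomm' : ∀ i j, i ≠ j → ∀ x y, φ i x * φ j y = φ j y * φ i x := by
    intro i j hij x y
    refine OG.env_comm _ _ ?_ _ (hmemφ i x) _ (hmemφ j y)
    rintro _ ⟨a, ha, rfl⟩ _ ⟨b, hb, rfl⟩
    exact hcomm i j hij a ha b hb
  obtain ⟨Ψ, hΨ⟩ := OG.exists_tensor_hom_i φ hcomm'
  have hN'abs : ActsAbsolutelyIrreducibly (matrixSet (⨆ i, L.map (MulAut.conj (g i)).toMonoidHom)) := by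
    apply AS.absIrr_of_sup
    refine absIrr_mono_i ?_ hNabs
    rintro _ ⟨x, hx, rfl⟩
    exact ⟨x, hgen x hx, rfl⟩
  have hsurj : Function.Surjective Ψ := by
    have htop := OG.adjoin_top_of_gen _ hN'abs (fun i => L.map (MulAut.conj (g i)).toMonoidHom) le_rfl
    rw [← AlgHom.range_eq_top, eq_top_iff, ← htop]
    apply Algebra.adjoin_le
    intro y hy
    obtain ⟨i, hi⟩ := Set.mem_iUnion.1 hy
    obtain ⟨x, rfl⟩ := hrange i y hi
    exact ⟨slot i x, hΨ i x⟩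
  have hc := OG.card_of_surj Ψ hsurj
  obtain ⟨e, P, hP⟩ := OG.tensor_basis_of_hom_i hc Ψ
  have hslot : ∀ i x, twi e P (slot i x) = φ i x := by
    intro i x
    rw [← hP, hΨ]
  have hle : Γ ≤ tensorWreathSubgroup s t e P := by
    intro h hh
    obtain ⟨σ, hσ⟩ := hperm h hh
    refine OG.mem_tensorWreath_i (by omega) e P h σ (fun i x => ?_)
    have h1 : (h : Matrix ι ι F) * φ i x * ((h⁻¹ : GL ι F) : Matrix ι ι F) ∈
        env (L.map (MulAut.conj (g (σ i))).toMonoidHom) := by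
      rw [← hσ i, OG.env_conj_iff, hφ]
      have h3 : (((h * g i)⁻¹ : GL ι F) : Matrix ι ι F) * ((h : Matrix ι ι F) * ((g i : Matrix ι ι F) *
          tmat e₀ P₀ (x ⊗ₖ (1 : Matrix (Fin k') (Fin k') F)) * (((g i)⁻¹ : GL ι F) : Matrix ι ι F)) *
          ((h⁻¹ : GL ι F) : Matrix ι ι F)) * ((h * g i : GL ι F) : Matrix ι ι F) =
          tmat e₀ P₀ (x ⊗ₖ (1 : Matrix (Fin k') (Fin k') F)) := by
        have e1 : (h : Matrix ι ι F) * ((g i : Matrix ι ι F) *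
            tmat e₀ P₀ (x ⊗ₖ (1 : Matrix (Fin k') (Fin k') F)) * (((g i)⁻¹ : GL ι F) : Matrix ι ι F)) *
            ((h⁻¹ : GL ι F) : Matrix ι ι F) = ((h * g i : GL ι F) : Matrix ι ι F) *
            tmat e₀ P₀ (x ⊗ₖ (1 : Matrix (Fin k') (Fin k') F)) * (((h * g i)⁻¹ : GL ι F) : Matrix ι ι F) := by
          rw [mul_inv_rev, Units.val_mul, Units.val_mul]
          simp only [Matrix.mul_assoc]
        rw [e1, mp_gi]
      rw [h3]
      exact (hB _).2 ⟨x, rfl⟩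
    obtain ⟨y, hy⟩ := hrange (σ i) _ h1
    exact ⟨y, by rw [hslot, hslot, hy]⟩
  have hadj : ∀ i x u v, f (twi e P (slot i x) *ᵥ u) v =
      f u (twi e P (slot i (J₁⁻¹ * xᵀ * J₁)) *ᵥ v) := by
    intro i x u v
    rw [hslot, hslot, hφ, hφ]
    exact adj_conj_sim f (g i) (hΓ (hgH i)) _ _ (OG.adj_leftFactor f e₀ P₀ J₁ J₂ hJ d1 x) u v
  have hst := OG.gram_power f hf.bilinear hf.nondegenerate e P J₁ d1 hadj
  obtain ⟨hskew, hodd⟩ := power_sign h2 f hf e P J₁ hst (by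
    rcases hsg with h | h
    · exact Or.inl h.1
    · exact Or.inr h.1)
  have h3t : 3 ≤ t := by
    obtain ⟨j, hj⟩ := hodd
    omega
  exact Or.inr (Or.inr (Or.inr (Or.inr (Or.inr (Or.inr (Or.inr (Or.inr (Or.inr (Or.inr
    ⟨s, t, e, P, gf J₁, AS.odd_card_iff.2 h2, hodd, h3t, hex, gf_isSymplectic h2 J₁ hskew d1, hst, hle⟩)))))))))

/-- the tensor-induced case, `q` even: class 8. -/
theorem induced_even [Fintype F] [Nonempty ι] (h2 : (2 : F) = 0) (hn2 : 2 ≤ Fintype.card ι) (m : ℕ)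
    (f : (ι → F) → (ι → F) → F) (hf : IsSymplecticForm f) (Γ : Subgroup (GL ι F))
    (hΓ : Γ ≤ similarityGroup f)
    (N : Subgroup (GL ι F)) (hm : MinOver Γ (scalars ι F) N)
    (hnab : ¬ ⁅N, N⁆ ≤ scalars ι F) (hNabs : ActsAbsolutelyIrreducibly (matrixSet N))
    (hns : ¬ ∀ M : Subgroup (GL ι F), scalars ι F ≤ M → M ≤ N → NormBy N M → M = scalars ι F ∨ M = N) :
    InGeoP m f Γ := by
  classical
  have hNH : N ≤ Γ := hm.le
  have hNsim : N ≤ similarityGroup f := hNH.trans hΓ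
  have hZc : ∀ z ∈ scalars ι F, ∀ g : GL ι F, g * z = z * g := fun z hz g => AS.mn_scalars_central z hz g
  obtain ⟨L, t, g, ht2, hgH, hLN, hLZ, hLnorm, hcomm, hgen, hfac, hperm⟩ :=
    AschG.exists_commuting_conj' Γ (scalars ι F) N hZc hm hnab hns
  have hcen := OG.cen_env_scal N L hNabs hfac
  obtain ⟨s, k', e₀, P₀, hB⟩ := AS.exists_leftFactor N hNabs.1 (env L) (AS.env_norm N L hLnorm) hcen
  have hcard : Fintype.card ι = s * k' := by
    rw [Fintype.card_congr e₀, Fintype.card_prod, Fintype.card_fin, Fintype.card_fin]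
  have hs0 : s ≠ 0 := by rintro rfl; simp at hcard
  have hk0 : k' ≠ 0 := by rintro rfl; simp at hcard
  have hs1 : s ≠ 1 := by
    rintro rfl
    exact hLZ (AS.le_scalars_of_env L (AS.scal_of_leftFactor_one (env L) e₀ P₀ hB))
  have hk1 : k' ≠ 1 := by
    rintro rfl
    have htop := AS.top_of_leftFactor_one (env L) e₀ P₀ hB
    have hne : (⟨0, by omega⟩ : Fin t) ≠ ⟨1, by omega⟩ := by
      intro h
      simp [Fin.ext_iff] at h
    exact hLZ (le_scalars_of_comm_conj L _ _ (hcomm _ _ hne) htop)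
  obtain ⟨J₁, J₂, hJ⟩ := AS.tensor_gram f hf (env L) e₀ P₀ hB
    (AS.env_adj f hf.bilinear L (hLN.trans hNsim))
  have hNt : N ≤ tensorProductSubgroup s k' e₀ P₀ :=
    (AS.env_norm N L hLnorm).trans (AS.norm_le_tensor (env L) e₀ P₀ hB)
  obtain ⟨Q, hQ, -, hNQ⟩ := quad_of_tensor_even h2 f hf N hNsim hNabs.1 (by omega) (by omega) e₀ P₀ J₁ J₂ hJ hNt
  obtain ⟨hperf, hPZ⟩ := Helper77.Asch.perfect_core Γ (scalars ι F) N hZc hm hnab
  have hPabs : ActsAbsolutelyIrreducibly (matrixSet ⁅N, N⁆) :=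
    AS.absIrr_of_sup _ (by rw [hPZ]; exact hNabs)
  obtain ⟨Q', hQ', hpol, hle⟩ := AS.quad_of_even h2 hn2 f hf ⁅N, N⁆ hPabs (AS.commutator_fixes f N hNsim) Q hQ
    (commutator_fixes_quad Q N hNQ) Γ hΓ (AS.mn_le_normalizer (AS.mn_normBy_commutator hm.norm))
  refine Or.inr (Or.inr (Or.inr (Or.inr (Or.inr (Or.inr (Or.inl ⟨Q', ?_, hQ', hpol, hle⟩))))))
  intro ho
  exact (AS.odd_card_iff.1 ho) h2

/-- **Aschbacher's theorem for subgroups of `Sp_{2m}(q)`, general `m`.** -/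
theorem mainP [Fintype F] (m : ℕ) (hm0 : 0 < m) (hcard : Fintype.card ι = 2 * m)
    (f : (ι → F) → (ι → F) → F) (hf : IsSymplecticForm f) (H : Subgroup (GL ι F))
    (hHI : H ≤ iso f) : InGeoP m f H ∨ InSymplecticResidualClass H := by
  classical
  have hne : Nonempty ι := Fintype.card_pos_iff.mp (by omega)
  have hH : H ≤ similarityGroup f := by
    intro g hg
    refine ⟨1, fun u v => ?_⟩
    rw [Units.val_one, one_mul]
    exact hHI hg u v
  obtain ⟨Z, hZ⟩ : ∃ Z, Z = scalars ι F := ⟨_, rfl⟩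
  have hZc : ∀ z ∈ Z, ∀ g : GL ι F, g * z = z * g := by
    intro z hz g
    exact AS.mn_scalars_central z (hZ ▸ hz) g
  obtain ⟨Γ, hΓd⟩ : ∃ Γ, Γ = H ⊔ Z := ⟨_, rfl⟩
  have hHle : H ≤ Γ := hΓd ▸ le_sup_left
  have hZle : Z ≤ Γ := hΓd ▸ le_sup_right
  have hΓ : Γ ≤ similarityGroup f := by
    rw [hΓd, hZ]
    exact sup_le hH (AS.scalars_le_sim f hf.bilinear)
  have hΓI : ∀ g ∈ Γ, ∃ h ∈ iso f, ∃ z ∈ scalars ι F, g = h * z := by
    intro g hg
    haveI : Z.Normal := Helper77.Asch.ag5_normal_of_central Z hZc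
    have h1 : g ∈ ((H ⊔ Z : Subgroup (GL ι F)) : Set (GL ι F)) := hΓd ▸ hg
    rw [Subgroup.mul_normal] at h1
    obtain ⟨h, hh, z, hz, rfl⟩ := Set.mem_mul.1 h1
    exact ⟨h, hHI hh, z, hZ ▸ hz, rfl⟩
  suffices InGeoP m f Γ ∨ InSymplecticResidualClass H by
    rcases this with h | h
    · exact Or.inl (h.mono hHle)
    · exact Or.inr h
  by_cases hirr : ActsIrreducibly (matrixSet Γ)
  swap
  · exact Or.inl (red_casesP m hcard f hf Γ hΓ hirr)
  have hZlt : Z < Γ := by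
    refine lt_of_le_of_ne hZle (fun h => ?_)
    apply AS.not_irr_scalars (ι := ι) (F := F) (by omega)
    rw [← hZ, h]
    exact hirr
  obtain ⟨N, hmin⟩ := Helper77.Asch.exists_minOver Γ Z hZlt
  have hNsim : N ≤ similarityGroup f := hmin.le.trans hΓ
  have hEn : Γ ≤ subalgebraNormalizer (cen (env N)) := AS.cen_norm Γ _ (AS.env_norm Γ N hmin.norm)
  have hEadj : IsAdjointClosedFor f (cen (env N)) := AS.cen_adj f hf _ (AS.env_adj f hf.bilinear N hNsim)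
  have hEc : IsComm (cen (env N)) := AS.cen_comm (env N)
  rcases comm_casesP m hm0 hcard f hf Γ hΓ hirr _ hEc hEn hEadj with h | hscal
  · exact Or.inl h
  rcases tensor_casesP m hm0 hcard f hf Γ hΓ hirr N hmin.le hmin.norm hscal with h | h | hNabs
  · exact Or.inl h
  · exact absurd (hZ ▸ h) (not_le_of_gt hmin.lt)
  by_cases hab : ⁅N, N⁆ ≤ Z
  · exact Or.inl (class_two_case m hm0 hcard f hf Γ hΓ hΓI N (hZ ▸ hmin) hNabs (hZ ▸ hab))
  by_cases hsimple : ∀ M : Subgroup (GL ι F), scalars ι F ≤ M → M ≤ N → NormBy N M → M = scalars ι F ∨ M = N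
  swap
  · by_cases h2F : (2 : F) = 0
    · exact Or.inl (induced_even h2F (by omega) m f hf Γ hΓ N (hZ ▸ hmin) (hZ ▸ hab) hNabs hsimple)
    · exact Or.inl (induced_caseP h2F m f hf Γ hΓ N (hZ ▸ hmin) (hZ ▸ hab) hNabs hsimple)
  obtain ⟨P, hP⟩ : ∃ P, P = ⁅N, N⁆ := ⟨_, rfl⟩
  obtain ⟨hperf, hPZ⟩ := Helper77.Asch.perfect_core Γ Z N hZc hmin hab
  rw [← hP] at hperf hPZ hab
  have hPnorm : NormBy Γ P := hP ▸ AS.mn_normBy_commutator hmin.norm
  have hPabs : ActsAbsolutelyIrreducibly (matrixSet P) :=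
    AS.absIrr_of_sup P (by rw [← hZ, hPZ]; exact hNabs)
  have hPfix : FixesForm (matrixSet P) f := hP ▸ AS.commutator_fixes f N hNsim
  have hnormH : Γ ≤ subgroupNormalizer P := AS.mn_le_normalizer hPnorm
  by_cases hsub : ∃ F₀ : Subfield F, F₀ ≠ ⊤ ∧ RealisableOver F₀ (matrixSet P)
  · exact Or.inl (subfield_case m f hf Γ P hPabs hPfix hnormH hsub)
  by_cases hq : ∃ Q : (ι → F) → F, IsNondegenerateQuadraticForm Q ∧ FixesQuadForm (matrixSet P) Q
  · obtain ⟨Q, hQ, hfixQ⟩ := hq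
    by_cases h2F : (2 : F) = 0
    · left
      obtain ⟨Q', hQ', hpol, hle⟩ := AS.quad_of_even h2F (by omega) f hf P hPabs hPfix Q hQ hfixQ Γ hΓ hnormH
      refine Or.inr (Or.inr (Or.inr (Or.inr (Or.inr (Or.inr (Or.inl ⟨Q', ?_, hQ', hpol, hle⟩))))))
      intro ho
      exact (AS.odd_card_iff.1 ho) h2F
    · exact (AS.no_quad_of_odd h2F f hf P hPabs hPfix Q hQ hfixQ).elim
  by_cases hu : ∃ (σ : F ≃+* F) (u : (ι → F) → (ι → F) → F),
      IsUnitaryForm σ u ∧ FixesForm (matrixSet P) u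
  · obtain ⟨σ, u, hu1, hu2⟩ := hu
    exact absurd (AS.realisable_of_unitary f hf.bilinear hf.nondegenerate P hPabs hPfix σ u hu1 hu2) hsub
  right
  subst hZ
  refine ⟨P, ⟨?_, ?_, hperf, ?_, ?_, ?_, hPabs, ?_⟩, hq, hu⟩
  · calc P ≤ ⁅Γ, Γ⁆ := hP ▸ Subgroup.commutator_mono hmin.le hmin.le
      _ ≤ H := hΓd ▸ Helper77.Asch.commutator_sup_le H _ hZc
  · intro h hh x hx
    exact hPnorm h (hHle hh) x hx
  · exact Helper77.Asch.simple_quot _ N P hPZ hmin.lt hsimple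
  · exact Helper77.Asch.nonabelian_quot _ P (by rw [hperf]; exact hab)
  · intro h _ hx
    exact AS.mn_mem_scalars_of_commute P hPabs h (Helper77.Asch.centralizes_of_perfect _ P hZc hperf h hx)
  · intro F₀ hF₀ hr
    exact hsub ⟨F₀, hF₀, hr⟩

end Cfsg.Agent.Lib.Helper11.SpG
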