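import Cfsg.Agent.Lib.Helper11.SpG.Defs
import Cfsg.Agent.Lib.Lead.OG.GPW

/-! Ladder ASPG, rung PSIGN: the sign of a tensor power of forms. -/

set_option autoImplicit false

namespace Cfsg.Agent.Lib.Helper11.SpG

open Cfsg Cfsg.Geo
open Cfsg.Agent.Lib.Helper77.Asch (NormBy MinOver)
open Cfsg.Agent.Lib.Helper80.AS (env cen IsScal IsComm SelfAdj Projs tmat IsLeftFactor GramTensor)
open Cfsg.Agent.Lib.Lead.OG (gpw_gram gpw_surj)
open scoped MatrixGroups Matrix Kronecker

variable {ι : Type} [Fintype ι] [DecidableEq ι] {F : Type*} [Field F]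

theorem psign_swap {a t : ℕ} (J : Matrix (Fin a) (Fin a) F) (ε : F) (hJ : ∀ i j, J j i = ε * J i j)
    (x y : (Fin t → Fin a) → F) :
    ∑ u, ∑ v, y u * (∏ i, J (u i) (v i)) * x v =
      ε ^ t * ∑ u, ∑ v, x u * (∏ i, J (u i) (v i)) * y v := by
  rw [Finset.sum_comm, Finset.mul_sum]
  refine Finset.sum_congr rfl fun u _ => ?_
  rw [Finset.mul_sum]
  refine Finset.sum_congr rfl fun v _ => ?_
  have : ∏ i, J (v i) (u i) = ε ^ t * ∏ i, J (u i) (v i) := by
    rw [Finset.prod_congr rfl (fun i _ => hJ (u i) (v i)), Finset.prod_mul_distrib, Finset.prod_const,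
      Finset.card_univ, Fintype.card_fin]
  rw [this]
  ring

/-- PSIGN. -/
theorem power_sign [Nonempty ι] (h2 : (2 : F) ≠ 0) (f : (ι → F) → (ι → F) → F) (hf : IsSymplecticForm f)
    {a t : ℕ} (e : ι ≃ (Fin t → Fin a)) (P : GL ι F) (J : Matrix (Fin a) (Fin a) F)
    (hst : IsTensorPowerFormStructure id f (Cfsg.Agent.Lib.Lead.OG.gf J) e P) (hJ : Jᵀ = J ∨ Jᵀ = -J) :
    Jᵀ = -J ∧ Odd t := by
  obtain ⟨c, hc, hst⟩ := hst
  simp only [gpw_gram, id] at hst
  obtain ⟨i0⟩ := ‹Nonempty ι›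
  have hv : (Pi.single i0 1 : ι → F) ≠ 0 := by
    intro h
    have := congrFun h i0
    simp at this
  obtain ⟨⟨w, hw⟩, -⟩ := hf.nondegenerate _ hv
  obtain ⟨x, hx⟩ := gpw_surj e P w
  obtain ⟨y, hy⟩ := gpw_surj e P (Pi.single i0 1)
  rw [← hx, ← hy] at hw
  have key : ∀ ε : F, (∀ i j, J j i = ε * J i j) → ε ^ t = -1 := by
    intro ε hε
    have h1 := hst x y
    have h2' := hst y x
    rw [psign_swap J ε hε] at h2'
    have h3 := hf.skew ((P : Matrix ι ι F) *ᵥ (x ∘ e)) ((P : Matrix ι ι F) *ᵥ (y ∘ e))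
    have hT : c * ∑ u, ∑ v, x u * (∏ i, J (u i) (v i)) * y v ≠ 0 := h1 ▸ hw
    rw [h1, h2'] at h3
    have h4 : (ε ^ t + 1) * (c * ∑ u, ∑ v, x u * (∏ i, J (u i) (v i)) * y v) = 0 := by
      linear_combination h3
    rcases mul_eq_zero.1 h4 with h5 | h5
    · exact eq_neg_of_add_eq_zero_left h5
    · exact absurd h5 hT
  have hne : (1 : F) ≠ -1 := by
    intro h
    apply h2
    linear_combination h
  rcases hJ with hJ | hJ
  · exfalso
    have := key 1 (fun i j => by
      rw [one_mul]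
      exact congrFun (congrFun hJ i) j)
    rw [one_pow] at this
    exact hne this
  · refine ⟨hJ, ?_⟩
    have := key (-1) (fun i j => by
      have := congrFun (congrFun hJ i) j
      rw [Matrix.transpose_apply, Matrix.neg_apply] at this
      rw [this]
      ring)
    by_contra hodd
    rw [Nat.not_odd_iff_even] at hodd
    rw [hodd.neg_one_pow] at this
    exact hne this

end Cfsg.Agent.Lib.Helper11.SpG
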