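import Cfsg.Agent.Lib.Helper11.SpG.Defs
import Cfsg.Agent.Lib.Helper80.AS.PAR
import Cfsg.Agent.Lib.Helper80.AS.TSIGN
import Cfsg.Agent.Lib.Helper80.AS.SWAP
import Cfsg.Agent.Lib.Helper80.AS.TNA
import Cfsg.Agent.Lib.Helper80.AS.TQ2
import Cfsg.Agent.Lib.Helper80.AS.O2ALG
import Cfsg.Agent.Lib.Helper80.AS.TSTR

/-! Ladder ASPG, rung TFINP. -/

set_option autoImplicit false

namespace Cfsg.Agent.Lib.Helper11.SpG

open Cfsg Cfsg.Geo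
open Cfsg.Agent.Lib.Helper77.Asch (NormBy MinOver)
open Cfsg.Agent.Lib.Helper80.AS (env cen IsScal IsComm SelfAdj Projs tmat IsLeftFactor GramTensor)
open Cfsg.Agent.Lib.Helper80.AS
open scoped MatrixGroups Matrix Kronecker

variable {ι : Type} [Fintype ι] [DecidableEq ι] {F : Type*} [Field F]

/-- the oriented odd case of TFINP: `J₁` skew, `J₂` symmetric. -/
theorem tfinp_odd [Fintype F] [Nonempty ι] (h2 : (2 : F) ≠ 0) (m : ℕ) (f : (ι → F) → (ι → F) → F)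
    (hf : IsSymplecticForm f) (Γ : Subgroup (GL ι F)) (hΓ : Γ ≤ similarityGroup f)
    (hT1 : ∀ E : Subalgebra F (Matrix ι ι F), IsComm E → Γ ≤ subalgebraNormalizer E →
      IsAdjointClosedFor f E → InGeoP m f Γ ∨ IsScal E)
    {s k : ℕ} (hk : 1 < k) (e : ι ≃ Fin s × Fin k) (P : GL ι F)
    (J₁ : Matrix (Fin s) (Fin s) F) (J₂ : Matrix (Fin k) (Fin k) F) (hJ : GramTensor f e P J₁ J₂)
    (hΓt : Γ ≤ tensorProductSubgroup s k e P) (h1 : J₁ᵀ = -J₁) (h3 : J₂ᵀ = J₂) : InGeoP m f Γ := by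
  have hq : Odd (Fintype.card F) := odd_card_iff.mpr h2
  by_cases hk3 : 3 ≤ k
  · obtain ⟨f₁, f₂, hf₁, hf₂, hstr⟩ := tensor_struct h2 f hf e P J₁ J₂ hJ h1 h3
    exact Or.inr (Or.inr (Or.inr (Or.inr (Or.inr (Or.inr (Or.inr (Or.inr (Or.inr
      (Or.inl ⟨s, k, e, P, f₁, f₂, hq, hk3, hf₁, hf₂, hstr, hΓt⟩)))))))))
  · obtain rfl : k = 2 := by omega
    obtain ⟨E, hc, hn, hadj, hns⟩ := exists_alg_of_two h2 f hf e P J₁ J₂ hJ h3 Γ hΓ hΓt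
    exact (hT1 E hc hn hadj).resolve_right hns

theorem tensor_finalP [Fintype F] [Nonempty ι] (m : ℕ) (f : (ι → F) → (ι → F) → F)
    (hf : IsSymplecticForm f) (Γ : Subgroup (GL ι F)) (hΓ : Γ ≤ similarityGroup f)
    (hirr : ActsIrreducibly (matrixSet Γ))
    (hT1 : ∀ E : Subalgebra F (Matrix ι ι F), IsComm E → Γ ≤ subalgebraNormalizer E →
      IsAdjointClosedFor f E → InGeoP m f Γ ∨ IsScal E)
    {s k : ℕ} (hs : 1 < s) (hk : 1 < k) (e : ι ≃ Fin s × Fin k) (P : GL ι F)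
    (J₁ : Matrix (Fin s) (Fin s) F) (J₂ : Matrix (Fin k) (Fin k) F) (hJ : GramTensor f e P J₁ J₂)
    (hΓt : Γ ≤ tensorProductSubgroup s k e P) : InGeoP m f Γ := by
  have hΓt' : Γ ≤ tensorProductSubgroup k s (e.trans (Equiv.prodComm _ _)) P := by
    rw [← tensor_swap e P]; exact hΓt
  have hJ' := gram_swap f e P J₁ J₂ hJ
  by_cases h2 : (2 : F) = 0
  · have hq : ¬ Odd (Fintype.card F) := fun h => (odd_card_iff.mp h) h2
    by_cases hd2 : ∃ i, J₂ i i ≠ 0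
    · exact absurd hirr (tensor_nonalt h2 hk f hf e P J₁ J₂ hJ hd2 Γ hΓ hΓt)
    by_cases hd1 : ∃ i, J₁ i i ≠ 0
    · exact absurd hirr (tensor_nonalt h2 hs f hf (e.trans (Equiv.prodComm _ _)) P J₂ J₁ hJ' hd1 Γ hΓ hΓt')
    push Not at hd1 hd2
    obtain ⟨Q, hQ1, hQ2, hQ3⟩ := quad_of_tensor_alt hq f hf e P J₁ J₂ hJ hd1 hd2
    exact Or.inr (Or.inr (Or.inr (Or.inr (Or.inr (Or.inr
      (Or.inl ⟨Q, hq, hQ1, hQ2, (le_inf hΓt hΓ).trans hQ3⟩))))))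
  · obtain ⟨_, _, ⟨h1, h3⟩ | ⟨h1, h3⟩⟩ := tensor_sign f hf e P J₁ J₂ hJ
    · exact tfinp_odd h2 m f hf Γ hΓ hT1 hs
        (e.trans (Equiv.prodComm _ _)) P J₂ J₁ hJ' hΓt' h3 h1
    · exact tfinp_odd h2 m f hf Γ hΓ hT1 hk e P J₁ J₂ hJ hΓt h1 h3

end Cfsg.Agent.Lib.Helper11.SpG
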